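import Mathlib
import Cfsg.Agent.H64.JzDefs
import Cfsg.Agent.S2948
import Cfsg.Agent.S2949
import Cfsg.Agent.S2950
import Cfsg.Agent.H51.SyAsm

/-!
# JZ-SETUP (piece of S2951 / S2952, for helper64): the residual situation exists

`setup (hNSE : StNSE) (hMax : StMaxS) : StSetup`.
-/

set_option autoImplicit false
open Cfsg

namespace Cfsg.Agent.H90.Jz

open Cfsg.Agent.H64.Jz

universe u

/-- JZ-SETUP. -/
theorem setup (hNSE : StNSE.{u}) (hMax : StMaxS.{u}) : StSetup.{u} := by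
  intro G _ _ S M K L hB hX
  have hB' := hB
  obtain ⟨hZN, hO, hM, hMJ, hT, -, hK, hLmax, hKL⟩ := hB'
  have hZN' := hZN
  obtain ⟨hc2, hsolv, hZ⟩ := hZN'
  -- `S` is a nontrivial 2-group
  have hS2 : IsPGroup 2 ↥(S : Subgroup G) := S.isPGroup'
  have hSne : (S : Subgroup G) ≠ ⊥ := hT.1.2.1
  -- `N_G(J(S)) ≤ L`
  have hJle : thompsonSubgroupOf 2 (S : Subgroup G) ≤ (S : Subgroup G) := Subgroup.map_subtype_le _
  have hJ2 : IsPGroup 2 ↥(thompsonSubgroupOf 2 (S : Subgroup G)) := hS2.to_le hJle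
  have hJne : thompsonSubgroupOf 2 (S : Subgroup G) ≠ ⊥ :=
    Cfsg.Agent.H51.Sy.sy_thompson_ne_bot (S : Subgroup G) hS2 hSne
  have hNJ2 : IsTwoLocal (Subgroup.normalizer (thompsonSubgroupOf 2 (S : Subgroup G) : Set G)) :=
    ⟨_, hJ2, hJne, rfl⟩
  have hNJL : Subgroup.normalizer (thompsonSubgroupOf 2 (S : Subgroup G) : Set G) ≤ L :=
    hX _ hNJ2 Subgroup.le_normalizer
  -- `S` is Sylow in `L` (S2950 + uniqueness)
  obtain ⟨L₀, hL₀max, hKL₀, huniq, -, hSyl₀⟩ :=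
    Cfsg.Agent.S2950.result hc2 hsolv hZ hO S M hM hMJ (S : Subgroup G) hT K hK
  have hLL₀ : L = L₀ := huniq L hLmax hKL
  have hSyl : IsSylowTwoIn (S : Subgroup G) L := by rw [hLL₀]; exact hSyl₀
  have hL2 : IsTwoLocal L := hLmax.1
  -- `L ⊄ M`
  have hLM : ¬ L ≤ M := fun h => hK.2.1 ((le_sup_left.trans hKL).trans h)
  -- `L ∈ ℒ(S)` (S2948)
  have h48 := Cfsg.Agent.S2948.result hc2 hsolv hZ hO S M hM hMJ (S : Subgroup G) hT L hL2 hLM
    (S : Subgroup G) hSyl hJle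
  have hLS : L ∈ jOvergroups (S : Subgroup G) := h48.2.2.1
  -- a maximal straddling `T'` for `L` inside `S`
  have hne : (straddlingTwoSubgroups L).Nonempty := hNSE hZN hO S L hL2 hNJL hLS
  obtain ⟨T', hT', hT'S⟩ := hMax S L hSyl.1 hne
  -- `T' ≠ S`
  have hT'ne : T' ≠ (S : Subgroup G) := by
    rintro rfl
    obtain ⟨-, -, -, X, hX2, hSX, hXL⟩ := hT'.1
    exact hXL (hX X hX2 (hJle.trans hSX))
  -- `K'` and `L'`
  obtain ⟨K', hK'⟩ := Cfsg.Agent.S2949.result hc2 hsolv hZ hO S L hL2 hNJL T' hT'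
  obtain ⟨L', hL'max, hK'L', -, -, -⟩ :=
    Cfsg.Agent.S2950.result hc2 hsolv hZ hO S L hL2 hNJL T' hT' K' hK'
  exact ⟨T', K', L', hB, hX, ⟨hZN, hO, hL2, hNJL, hT', hT'S, hK', hL'max, hK'L'⟩, hT'ne⟩

example (hNSE : StNSE.{u}) (hMax : StMaxS.{u}) : Cfsg.Agent.H64.Jz.StSetup.{u} :=
  setup hNSE hMax

end Cfsg.Agent.H90.Jz

#print axioms Cfsg.Agent.H90.Jz.setup
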