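import Cfsg.Agent.H90.NSDefs
import Cfsg.Agent.H86.GrpLemmas

set_option autoImplicit false

/-!
S5121 team project: closure properties of `Λ` and of `[Q, g] ≤ R`.
-/

namespace Cfsg.Agent.H90.NS

open Cfsg Cfsg.FusionSystem Cfsg.Agent.H86

universe u

variable {G : Type u} [Group G]

lemma rSub_le_wSub (p : ℕ) (S T : Subgroup G) : rSub p T ≤ wSub p S T :=
  fun _ hx => ⟨hx.2, Subgroup.mem_sup_left hx.1⟩

lemma wSub_le_pCore (p : ℕ) (S T : Subgroup G) : wSub p S T ≤ pCore p G := inf_le_left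

lemma inv_eq_pow_card [Finite G] (g : G) : g⁻¹ = g ^ (Nat.card G - 1) := by
  apply inv_eq_of_mul_eq_one_right
  rw [← pow_succ']
  have : Nat.card G - 1 + 1 = Nat.card G := Nat.sub_add_cancel Nat.card_pos
  rw [this, pow_card_eq_one']

lemma lam_one (p : ℕ) (S T : Subgroup G) : Lam p S T (1 : G) := by
  constructor
  · intro q _
    simp
  · intro w _
    simp

lemma lam_mul {p : ℕ} {S T : Subgroup G} (hRn : (rSub p T).Normal) {g h : G}
    (hg : Lam p S T g) (hh : Lam p S T h) : Lam p S T (g * h) := by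
  constructor
  · intro q hq
    have h1 := hg.1 q hq
    have h2 := hh.1 q hq
    have h3 := hg.2 _ h2
    have e : q⁻¹ * (g * h * q * (g * h)⁻¹) = q⁻¹ * (g * q * g⁻¹) * ((q⁻¹ * (h * q * h⁻¹)) *
        ((q⁻¹ * (h * q * h⁻¹))⁻¹ * (g * (q⁻¹ * (h * q * h⁻¹)) * g⁻¹))) := by group
    rw [e]
    exact mul_mem h1 (mul_mem h2 (rSub_le_wSub p S T h3))
  · intro w hw
    have h1 := hg.2 w hw
    have h2 := hh.2 w hw
    have e : w⁻¹ * (g * h * w * (g * h)⁻¹) = w⁻¹ * (g * w * g⁻¹) *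
        (g * (w⁻¹ * (h * w * h⁻¹)) * g⁻¹) := by group
    rw [e]
    exact mul_mem h1 (hRn.conj_mem _ h2 g)

lemma lam_pow {p : ℕ} {S T : Subgroup G} (hRn : (rSub p T).Normal) {g : G}
    (hg : Lam p S T g) (n : ℕ) : Lam p S T (g ^ n) := by
  induction n with
  | zero => rw [pow_zero]; exact lam_one p S T
  | succ n ih => rw [pow_succ]; exact lam_mul hRn ih hg

lemma lam_inv [Finite G] {p : ℕ} {S T : Subgroup G} (hRn : (rSub p T).Normal) {g : G}
    (hg : Lam p S T g) : Lam p S T g⁻¹ := by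
  rw [inv_eq_pow_card]
  exact lam_pow hRn hg _

lemma qr_one (p : ℕ) (T : Subgroup G) : QR p T (1 : G) := by
  intro q _
  simp

lemma qr_mul {p : ℕ} {T : Subgroup G} (hRn : (rSub p T).Normal) {g h : G}
    (hg : QR p T g) (hh : QR p T h) : QR p T (g * h) := by
  intro q hq
  have h1 := hg q hq
  have h2 := hh q hq
  have e : q⁻¹ * (g * h * q * (g * h)⁻¹) = q⁻¹ * (g * q * g⁻¹) *
      (g * (q⁻¹ * (h * q * h⁻¹)) * g⁻¹) := by group
  rw [e]
  exact mul_mem h1 (hRn.conj_mem _ h2 g)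

lemma qr_pow {p : ℕ} {T : Subgroup G} (hRn : (rSub p T).Normal) {g : G}
    (hg : QR p T g) (n : ℕ) : QR p T (g ^ n) := by
  induction n with
  | zero => rw [pow_zero]; exact qr_one p T
  | succ n ih => rw [pow_succ]; exact qr_mul hRn ih hg

lemma qr_inv [Finite G] {p : ℕ} {T : Subgroup G} (hRn : (rSub p T).Normal) {g : G}
    (hg : QR p T g) : QR p T g⁻¹ := by
  rw [inv_eq_pow_card]
  exact qr_pow hRn hg _

lemma qr_conj {p : ℕ} {T : Subgroup G} (hRn : (rSub p T).Normal) {g : G}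
    (hg : QR p T g) (x : G) : QR p T (x * g * x⁻¹) := by
  intro q hq
  have hQn : (pCore p G).Normal := pCore_normal p G
  have hq' : x⁻¹ * q * x⁻¹⁻¹ ∈ pCore p G := hQn.conj_mem q hq x⁻¹
  have h1 := hg _ hq'
  have e : q⁻¹ * (x * g * x⁻¹ * q * (x * g * x⁻¹)⁻¹) =
      x * ((x⁻¹ * q * x⁻¹⁻¹)⁻¹ * (g * (x⁻¹ * q * x⁻¹⁻¹) * g⁻¹)) * x⁻¹ := by group
  rw [e]
  exact hRn.conj_mem _ h1 x

lemma lam_of_qr {p : ℕ} {S T : Subgroup G} {g : G} (hg : QR p T g) : Lam p S T g :=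
  ⟨fun q hq => rSub_le_wSub p S T (hg q hq), fun w hw => hg w (wSub_le_pCore p S T hw)⟩

/-- Elements of `T` satisfy `[Q, t] ≤ R` (from strong closure). -/
lemma qr_of_mem {p : ℕ} [Fact p.Prime] {S : Sylow p G} {T : Subgroup G} (hTS : T ≤ S)
    (hsc : SC p S T) {t : G} (ht : t ∈ T) : QR p T t := by
  intro q hq
  have hQn : (pCore p G).Normal := pCore_normal p G
  have hQS : pCore p G ≤ S := pCore_le_sylow S
  have hqS : q ∈ (S : Subgroup G) := hQS hq
  refine ⟨?_, ?_⟩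
  · have h1 : q⁻¹ * t * q⁻¹⁻¹ ∈ T := by
      apply hsc _ _ ht
      exact Subgroup.mul_mem _ (Subgroup.mul_mem _ (Subgroup.inv_mem _ hqS) (hTS ht))
        (Subgroup.inv_mem _ (Subgroup.inv_mem _ hqS))
    have e : q⁻¹ * (t * q * t⁻¹) = q⁻¹ * t * q⁻¹⁻¹ * t⁻¹ := by group
    rw [e]
    exact Subgroup.mul_mem _ h1 (Subgroup.inv_mem _ ht)
  · exact Subgroup.mul_mem _ (Subgroup.inv_mem _ hq) (hQn.conj_mem q hq t)

end Cfsg.Agent.H90.NS
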