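import Cfsg.Agent.H86.FusAut

set_option autoImplicit false

/-!
Statement definitions for the team project S5121 (normal subsystems of the fusion system of a
finite group `G` with `C_G(O_p(G)) ≤ O_p(G)` are the systems of normal subgroups).
Each `XxStmt` is proved in its own file by a `theorem xx : XxStmt.{u}`.

Notation: `Q = O_p(G)`, `F = F_S(G)`, `R = T ∩ Q` (`rSub`), `B₁ = {g | [Q,g] ≤ R, c_g|_R ∈ Aut_E(R)}`
(`b1`, `bSub`), `K = O^p(B₁)` (`kSub`), `H = K T` (`hSub`).
-/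

namespace Cfsg.Agent.H90.NS

open Cfsg Cfsg.FusionSystem Cfsg.Agent.H86

universe u

variable {G : Type u} [Group G]

/-- `R = T ∩ O_p(G)`. -/
def rSub (p : ℕ) (T : Subgroup G) : Subgroup G := T ⊓ pCore p G

/-- `[Q, g] ≤ R`, elementwise: `g q g⁻¹ ∈ q R` for all `q ∈ Q = O_p(G)`. -/
def QR (p : ℕ) (T : Subgroup G) (g : G) : Prop :=
  ∀ q ∈ pCore p G, q⁻¹ * (g * q * g⁻¹) ∈ rSub p T

/-- `B₁` as a set: `[Q, g] ≤ R` and conjugation by `g` on `R` is a map of `E`. -/
def b1 (p : ℕ) (T : Subgroup G) (E : FusionSystem T) : Set G :=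
  {g | QR p T g ∧ Mor E (rSub p T) (fun x => g * x * g⁻¹)}

/-- `B₁` as a subgroup (the set `b1` is already a subgroup: piece `b1sub`). -/
def bSub (p : ℕ) (T : Subgroup G) (E : FusionSystem T) : Subgroup G := Subgroup.closure (b1 p T E)

/-- `K = O^p(B₁)`: generated by the elements of `B₁` of order prime to `p`. -/
def kSub (p : ℕ) (T : Subgroup G) (E : FusionSystem T) : Subgroup G :=
  Subgroup.closure {g | g ∈ b1 p T E ∧ (orderOf g).Coprime p}

/-- `H = K T`: the normal subgroup realizing `E`. -/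
def hSub (p : ℕ) (T : Subgroup G) (E : FusionSystem T) : Subgroup G := kSub p T E ⊔ T

/-- `W = Q ∩ T C_S(T)`. -/
def wSub (p : ℕ) (S T : Subgroup G) : Subgroup G := pCore p G ⊓ (T ⊔ centralizerIn S T)

/-- `Λ(g)`: `[Q, g] ≤ W` and `[W, g] ≤ R`. -/
def Lam (p : ℕ) (S T : Subgroup G) (g : G) : Prop :=
  (∀ q ∈ pCore p G, q⁻¹ * (g * q * g⁻¹) ∈ wSub p S T) ∧
    ∀ w ∈ wSub p S T, w⁻¹ * (g * w * g⁻¹) ∈ rSub p T

/-- The standing hypotheses of S5121. -/
def Hyp (p : ℕ) [Fact p.Prime] (S : Sylow p G) (T : Subgroup G) (E : FusionSystem T) : Prop :=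
  Subgroup.centralizer ((pCore p G : Subgroup G) : Set G) ≤ pCore p G ∧ T ≤ S ∧
    E.IsNormalIn (groupFusionSystem (S : Subgroup G)) p

/-! ### The facts, as predicates of the setting -/

/-- F1: `T` is strongly closed in `S` with respect to `G`, elementwise. -/
def SC (p : ℕ) (S : Sylow p G) (T : Subgroup G) : Prop :=
  ∀ g x : G, x ∈ T → g * x * g⁻¹ ∈ (S : Subgroup G) → g * x * g⁻¹ ∈ T

/-- F3: an element acting trivially on `Q/R` and on `R` lies in `Q`. -/
def Chain (p : ℕ) (T : Subgroup G) : Prop :=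
  ∀ g : G, QR p T g → (∀ r ∈ rSub p T, g * r * g⁻¹ = r) → g ∈ pCore p G

/-- F5: `R` is normal and centric in `E`. -/
def RNC (p : ℕ) (T : Subgroup G) (E : FusionSystem T) : Prop :=
  E.IsNormal (rSub p T) ∧ E.IsCentric (rSub p T)

/-- F6: `Aut_E(P)` is normalized by `Aut_F(P)` for `P ≤ T`. -/
def AutNorm (p : ℕ) (S : Sylow p G) (T : Subgroup G) (E : FusionSystem T) : Prop :=
  ∀ P : Subgroup G, P ≤ T → ∀ α ∈ E.autGroup P,
    ∀ β ∈ (groupFusionSystem (S : Subgroup G)).autGroup P, β * α * β⁻¹ ∈ E.autGroup P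

/-- F6': an automorphism in `Aut_F(P)` (`R ≤ P ≤ T`) of order prime to `p` whose restriction to `R`
is a map of `E` lies in `Aut_E(P)`. -/
def Key (p : ℕ) (S : Sylow p G) (T : Subgroup G) (E : FusionSystem T) : Prop :=
  ∀ P : Subgroup G, rSub p T ≤ P → P ≤ T →
    ∀ β ∈ (groupFusionSystem (S : Subgroup G)).autGroup P, (orderOf β).Coprime p →
      Mor E (rSub p T) (autFun P β) → β ∈ E.autGroup P

/-- F7: the set `b1` is a normal subgroup containing `T`. -/
def BOK (p : ℕ) (T : Subgroup G) (E : FusionSystem T) : Prop :=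
  ((bSub p T E : Subgroup G) : Set G) = b1 p T E ∧ (bSub p T E).Normal ∧ T ≤ bSub p T E

/-- F8: `S ∩ B₁ ≤ T Q`. -/
def SB (p : ℕ) (S : Sylow p G) (T : Subgroup G) (E : FusionSystem T) : Prop :=
  ∀ s ∈ (S : Subgroup G), s ∈ b1 p T E → ∃ t ∈ T, ∃ q ∈ pCore p G, s = t * q

/-- F12: every map of `F_T(H)` is a map of `E`. -/
def HLe (p : ℕ) (T : Subgroup G) (E : FusionSystem T) : Prop :=
  ∀ (P : Subgroup G) (f : G → G),
    Mor (fusionSystemOfSubgroup (hSub p T E) T le_sup_right) P f → Mor E P f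

/-- F14: every map of `E` on `R` is conjugation by some `m` with `Λ(m)`. -/
def LamReal (p : ℕ) (S : Sylow p G) (T : Subgroup G) (E : FusionSystem T) : Prop :=
  ∀ f : G → G, Mor E (rSub p T) f →
    ∃ m : G, Lam p (S : Subgroup G) T m ∧ ∀ x ∈ rSub p T, f x = m * x * m⁻¹

/-- F13: every map of `E` on `R` is conjugation by an element of `H`. -/
def HReal (p : ℕ) (T : Subgroup G) (E : FusionSystem T) : Prop :=
  ∀ f : G → G, Mor E (rSub p T) f → ∃ h ∈ hSub p T E, ∀ x ∈ rSub p T, f x = h * x * h⁻¹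

/-- G: every map of `E` is a map of `F_T(H)`. -/
def ELe (p : ℕ) (T : Subgroup G) (E : FusionSystem T) : Prop :=
  ∀ (P : Subgroup G) (f : G → G), Mor E P f →
    Mor (fusionSystemOfSubgroup (hSub p T E) T le_sup_right) P f

/-- U: uniqueness of `H`. -/
def Uniq (p : ℕ) (T : Subgroup G) (E : FusionSystem T) : Prop :=
  ∀ H' : Subgroup G, (∃ hTH' : T ≤ H', H'.Normal ∧
      (∃ R : Sylow p H', (R : Subgroup H') = T.subgroupOf H') ∧
      ∀ P : Subgroup G, E.Hom P = (fusionSystemOfSubgroup H' T hTH').Hom P) → H' = hSub p T E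

/-! ### The pieces -/

/-- A1 (F1, F2): strong closure elementwise, and `R ⊴ G`. -/
def A1Stmt : Prop :=
  ∀ {G : Type u} [Group G] [Finite G] (p : ℕ) [Fact p.Prime] (S : Sylow p G) (T : Subgroup G)
    (E : FusionSystem T), Hyp p S T E → SC p S T ∧ (rSub p T).Normal

/-- A2 (F3): the chain lemma. Pure group theory. -/
def A2Stmt : Prop :=
  ∀ {G : Type u} [Group G] [Finite G] (p : ℕ) [Fact p.Prime] (T : Subgroup G),
    Subgroup.centralizer ((pCore p G : Subgroup G) : Set G) ≤ pCore p G → (rSub p T).Normal →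
    Chain p T

/-- A3 (F5): `R` is normal and centric in `E`. -/
def A3Stmt : Prop :=
  ∀ {G : Type u} [Group G] [Finite G] (p : ℕ) [Fact p.Prime] (S : Sylow p G) (T : Subgroup G)
    (E : FusionSystem T), Hyp p S T E → SC p S T → (rSub p T).Normal → Chain p T → RNC p T E

/-- A4 (F6): `Aut_E(P) ⊴ Aut_F(P)`. -/
def A4Stmt : Prop :=
  ∀ {G : Type u} [Group G] [Finite G] (p : ℕ) [Fact p.Prime] (S : Sylow p G) (T : Subgroup G)
    (E : FusionSystem T), Hyp p S T E → AutNorm p S T E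

/-- A5 (F6'): the key lemma. -/
def A5Stmt : Prop :=
  ∀ {G : Type u} [Group G] [Finite G] (p : ℕ) [Fact p.Prime] (S : Sylow p G) (T : Subgroup G)
    (E : FusionSystem T), Hyp p S T E → SC p S T → (rSub p T).Normal → RNC p T E →
      AutNorm p S T E → Key p S T E

/-- A6 (F7): `B₁` is a normal subgroup containing `T`. -/
def A6Stmt : Prop :=
  ∀ {G : Type u} [Group G] [Finite G] (p : ℕ) [Fact p.Prime] (S : Sylow p G) (T : Subgroup G)
    (E : FusionSystem T), Hyp p S T E → SC p S T → (rSub p T).Normal → AutNorm p S T E →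
      BOK p T E

/-- A7 (F8): `S ∩ B₁ ≤ T Q`. -/
def A7Stmt : Prop :=
  ∀ {G : Type u} [Group G] [Finite G] (p : ℕ) [Fact p.Prime] (S : Sylow p G) (T : Subgroup G)
    (E : FusionSystem T), Hyp p S T E → SC p S T → (rSub p T).Normal → Chain p T → RNC p T E →
      BOK p T E → SB p S T E

/-- A8 (F9): `H ⊴ G`. -/
def A8Stmt : Prop :=
  ∀ {G : Type u} [Group G] [Finite G] (p : ℕ) [Fact p.Prime] (S : Sylow p G) (T : Subgroup G)
    (E : FusionSystem T), Hyp p S T E → SC p S T → BOK p T E → (hSub p T E).Normal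

/-- A9 (F10): `S ∩ H ≤ T`. -/
def A9Stmt : Prop :=
  ∀ {G : Type u} [Group G] [Finite G] (p : ℕ) [Fact p.Prime] (S : Sylow p G) (T : Subgroup G)
    (E : FusionSystem T), Hyp p S T E → SC p S T → (rSub p T).Normal → BOK p T E → SB p S T E →
      (S : Subgroup G) ⊓ hSub p T E ≤ T

/-- A10 (F12): `F_T(H) ≤ E`. -/
def A10Stmt : Prop :=
  ∀ {G : Type u} [Group G] [Finite G] (p : ℕ) [Fact p.Prime] (S : Sylow p G) (T : Subgroup G)
    (E : FusionSystem T), Hyp p S T E → SC p S T → (rSub p T).Normal → Chain p T → RNC p T E →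
      Key p S T E → BOK p T E → (hSub p T E).Normal → (S : Subgroup G) ⊓ hSub p T E ≤ T →
      HLe p T E

/-- A11 (F14): maps of `E` on `R` are induced by elements with `Λ`. -/
def A11Stmt : Prop :=
  ∀ {G : Type u} [Group G] [Finite G] (p : ℕ) [Fact p.Prime] (S : Sylow p G) (T : Subgroup G)
    (E : FusionSystem T), Hyp p S T E → SC p S T → (rSub p T).Normal → RNC p T E →
      AutNorm p S T E → LamReal p S T E

/-- A12 (F13): maps of `E` on `R` are induced by elements of `H`. -/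
def A12Stmt : Prop :=
  ∀ {G : Type u} [Group G] [Finite G] (p : ℕ) [Fact p.Prime] (S : Sylow p G) (T : Subgroup G)
    (E : FusionSystem T), Hyp p S T E → SC p S T → (rSub p T).Normal → RNC p T E →
      LamReal p S T E → HReal p T E

/-- A13 (G): `E ≤ F_T(H)`. -/
def A13Stmt : Prop :=
  ∀ {G : Type u} [Group G] [Finite G] (p : ℕ) [Fact p.Prime] (S : Sylow p G) (T : Subgroup G)
    (E : FusionSystem T), Hyp p S T E → (rSub p T).Normal → RNC p T E → (hSub p T E).Normal →
      (S : Subgroup G) ⊓ hSub p T E ≤ T → HLe p T E → HReal p T E → ELe p T E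

/-- A14 (U): uniqueness. -/
def A14Stmt : Prop :=
  ∀ {G : Type u} [Group G] [Finite G] (p : ℕ) [Fact p.Prime] (S : Sylow p G) (T : Subgroup G)
    (E : FusionSystem T), Hyp p S T E → SC p S T → (rSub p T).Normal → Chain p T → BOK p T E →
      Uniq p T E

end Cfsg.Agent.H90.NS
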