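import Cfsg.Agent.H87.PPowerIdx
import Cfsg.Agent.H87.PrimeIdx
import Cfsg.Agent.H87.Invariant
import Cfsg.Agent.H87.Hyp

set_option autoImplicit false

/-!
Statement definitions for the team project S5156 (terminating residual series iff constrained with
`p`-solvable models). Each `XxStmt` is proved in its own file by a `theorem xx : XxStmt.{u}`.
-/

namespace Cfsg.Agent.H90.TR

open Cfsg Cfsg.FusionSystem Cfsg.Agent.H86 Cfsg.Agent.H87

universe u

/-- `O^{p'}(G)`: the subgroup generated by the elements of `p`-power order. -/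
def opPrimeGrp (p : ℕ) (G : Type*) [Group G] : Subgroup G :=
  Subgroup.closure {g : G | ∃ k : ℕ, orderOf g = p ^ k}

instance opPrimeGrp_normal (p : ℕ) (G : Type*) [Group G] : (opPrimeGrp p G).Normal :=
  pPrimeRes_normal p G

/-- G1: a normal subgroup of a finite group with `C_G(O_p(G)) ≤ O_p(G)` has the same property. -/
def G1Stmt : Prop :=
  ∀ {G : Type u} [Group G] [Finite G] (p : ℕ) [Fact p.Prime] (N : Subgroup G) [N.Normal],
    Subgroup.centralizer ((pCore p G : Subgroup G) : Set G) ≤ pCore p G →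
    Subgroup.centralizer ((pCore p N : Subgroup N) : Set N) ≤ pCore p N

/-- G2: an extension of a `p`-solvable group by a `p`-solvable group is `p`-solvable. -/
def G2Stmt : Prop :=
  ∀ {G : Type u} [Group G] [Finite G] (p : ℕ) [Fact p.Prime] (N : Subgroup G) [N.Normal],
    IsPSolvable p N → IsPSolvable p (G ⧸ N) → IsPSolvable p G

/-- G3: in a nontrivial finite `p`-solvable group, `O^p(O^{p'}(G))` is a proper subgroup. -/
def G3Stmt : Prop :=
  ∀ {G : Type u} [Group G] [Finite G] (p : ℕ) [Fact p.Prime], Nontrivial G → IsPSolvable p G →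
    Nat.card (pResidual p (opPrimeGrp p G)) < Nat.card G

/-- M1: the system induced by a normal subgroup `K` of a finite group `G` (in which `S` is embedded
as a Sylow subgroup) on the preimage `T₀` of `K` is realized by `K`, on a Sylow subgroup of `K`. -/
def M1Stmt : Prop :=
  ∀ {Ω : Type u} [Group Ω] {S : Subgroup Ω} {G : Type u} [Group G] [Finite G] (p : ℕ)
    [Fact p.Prime] (ι : S →* G) (hι : Function.Injective ι) (T : Sylow p G)
    (_ : (T : Subgroup G) = ι.range) (K : Subgroup G) [K.Normal] (T₀ : Subgroup Ω) (hT₀S : T₀ ≤ S)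
    (hT₀ : ∀ s : S, (s : Ω) ∈ T₀ ↔ ι s ∈ K),
    ∃ ι' : T₀ →* K, (conjSys ι hι K T₀ hT₀S (fun s hs => (hT₀ s).1 hs)).IsRealizedBy ι' ∧
      ∃ T' : Sylow p K, (T' : Subgroup K) = ι'.range

/-- R1a: the system of `O^{p'}(G)` has index prime to `p` in the system of `G`. -/
def R1aStmt : Prop :=
  ∀ {Ω : Type u} [Group Ω] {S : Subgroup Ω} [Finite S] (p : ℕ) [Fact p.Prime]
    (F : FusionSystem S) (G : Type u) [Group G] [Finite G] (ι : S →* G) (hreal : F.IsRealizedBy ι)
    (hM : ∀ s : S, (s : Ω) ∈ S → ι s ∈ opPrimeGrp p G),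
    (conjSys ι hreal.1 (opPrimeGrp p G) S le_rfl hM).HasPrimeToPIndexIn F p

/-- R1b: for a model `G` of the saturated system `F`, the system of `O^{p'}(G)` lies in every
saturated subsystem of `F` of index prime to `p`. -/
def R1bStmt : Prop :=
  ∀ {Ω : Type u} [Group Ω] {S : Subgroup Ω} [Finite S] (p : ℕ) [Fact p.Prime] (_ : IsPGroup p S)
    (F : FusionSystem S) (_ : F.IsSaturated p) (G : Type u) [Group G] (ι : S →* G)
    (hG : F.IsModel p G ι) (hM : ∀ s : S, (s : Ω) ∈ S → ι s ∈ opPrimeGrp p G)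
    (D : FusionSystem S), D.IsSaturated p → D.HasPrimeToPIndexIn F p →
    (conjSys ι hG.2.1.1 (opPrimeGrp p G) S le_rfl hM).IsSubsystemOf D

/-- R2a: the hyperfocal subgroup of a system realized by a finite group `M` on a Sylow subgroup is
the preimage of `O^p(M)`. -/
def R2aStmt : Prop :=
  ∀ {Ω : Type u} [Group Ω] {S : Subgroup Ω} [Finite S] (p : ℕ) [Fact p.Prime]
    (E : FusionSystem S) (M : Type u) [Group M] [Finite M] (ι : S →* M) (_ : E.IsRealizedBy ι)
    (T : Sylow p M) (_ : (T : Subgroup M) = ι.range) (s : S),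
    (s : Ω) ∈ E.hyperfocalSubgroup p ↔ ι s ∈ pResidual p M

/-- R2b: the system of `O^p(M)` on the hyperfocal subgroup has `p`-power index. -/
def R2bStmt : Prop :=
  ∀ {Ω : Type u} [Group Ω] {S : Subgroup Ω} [Finite S] (p : ℕ) [Fact p.Prime]
    (E : FusionSystem S) (M : Type u) [Group M] [Finite M] (ι : S →* M) (hreal : E.IsRealizedBy ι)
    (hK : ∀ s : S, (s : Ω) ∈ E.hyperfocalSubgroup p → ι s ∈ pResidual p M),
    (conjSys ι hreal.1 (pResidual p M) (E.hyperfocalSubgroup p) (hyperfocal_le E p)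
      hK).HasPPowerIndexIn E p

/-- I1: the `p'`-residual subsystem is invariant under `Aut_F(S)`. -/
def I1Stmt : Prop :=
  ∀ {Ω : Type u} [Group Ω] {S : Subgroup Ω} [Finite S] (p : ℕ) [Fact p.Prime] (_ : IsPGroup p S)
    (F : FusionSystem S) (_ : F.IsSaturated p) (E : FusionSystem S), F.IsPPrimeResidual p E →
    AutInv E F

/-- Y1: the characteristic subgroups of `O_p(E)`, for `E` an invariant subsystem of `F` over `T`
with the Frattini property, are strongly closed in `F`. -/
def Y1Stmt : Prop :=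
  ∀ {Ω : Type u} [Group Ω] {S T : Subgroup Ω} [Finite S] (F : FusionSystem S)
    (E : FusionSystem T), T ≤ S → E.IsSubsystemOf F → AutInv E F → Frat E F →
    ∀ U : Subgroup Ω, U ≤ E.core → (U.subgroupOf E.core).Characteristic → F.StronglyClosed U

/-- Y2: if `Q ≤ T ⊴ S` with `C_T(Q) ≤ Q`, the characteristic subgroups of `Q` are strongly
closed in the saturated system `F`, and every normal subgroup of `S` containing `T` is strongly
closed in `F`, then `Q C_S(Q)` is normal in `F`. -/
def Y2Stmt : Prop :=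
  ∀ {Ω : Type u} [Group Ω] {S : Subgroup Ω} [Finite S] (p : ℕ) [Fact p.Prime] (_ : IsPGroup p S)
    (F : FusionSystem S) (_ : F.IsSaturated p) (T Q : Subgroup Ω), Q ≤ T → T ≤ S →
    (∀ s ∈ S, ∀ t ∈ T, s * t * s⁻¹ ∈ T) →
    (∀ U : Subgroup Ω, U ≤ Q → (U.subgroupOf Q).Characteristic → F.StronglyClosed U) →
    centralizerIn T Q ≤ Q →
    (∀ T' : Subgroup Ω, T ≤ T' → T' ≤ S → (∀ s ∈ S, ∀ t ∈ T', s * t * s⁻¹ ∈ T') →
      F.StronglyClosed T') →
    F.IsNormal (Q ⊔ centralizerIn S Q)

end Cfsg.Agent.H90.TR
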