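import Mathlib
import Cfsg.Agent.H59.JzKillDefs
import Cfsg.Agent.S2950
import Cfsg.Agent.H51.Local
import Cfsg.Agent.H54.UqO2SN
import Cfsg.Agent.Helper55.J48

/-!
# K-BASIC (sub-piece of JZ-KILL, S2951 / S2952): the Sylow facts
-/

set_option autoImplicit false
open Cfsg

namespace Cfsg.Agent.H90.JzK

open Cfsg.Agent.H64.Jz Cfsg.Agent.H59.JzK

universe u

/-- K-BASIC. -/
theorem kBasic : StKBasic.{u} := by
  intro G _ _ S M K L T' K' L' hR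
  obtain ⟨hB, -, hB', -⟩ := hR
  obtain ⟨hZN, hO, hM, hMJ, hT, -, hK, hLmax, hKL⟩ := hB
  obtain ⟨hc2, hsolv, hZ⟩ := hZN
  obtain ⟨-, -, hL2, hNJL, hT', hT'S, hK', hL'max, hK'L'⟩ := hB'
  -- `S` is Sylow in `L`
  obtain ⟨L₀, -, -, huniq, -, hSyl₀⟩ :=
    Cfsg.Agent.S2950.result hc2 hsolv hZ hO S M hM hMJ (S : Subgroup G) hT K hK
  have hLL₀ : L = L₀ := huniq L hLmax hKL
  have hSyl : IsSylowTwoIn (S : Subgroup G) L := by rw [hLL₀]; exact hSyl₀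
  -- `T'` is Sylow in `L'`, `K'` subnormal in `L'`
  obtain ⟨L₁, -, -, huniq₁, hsn₁, hSyl₁⟩ :=
    Cfsg.Agent.S2950.result hc2 hsolv hZ hO S L hL2 hNJL T' hT' K' hK'
  have hLL₁ : L' = L₁ := huniq₁ L' hL'max hK'L'
  have hSyl' : IsSylowTwoIn T' L' := by rw [hLL₁]; exact hSyl₁
  have hsn : (K'.subgroupOf L').IsSubnormal := by rw [hLL₁]; exact hsn₁
  have hK'L : K' ≤ L' := le_sup_left.trans hK'L'
  have hQ'T : pCoreOf 2 L' ≤ T' := Cfsg.Agent.Helper55.J48.pCoreOf_le_of_sylowIn hSyl'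
  refine ⟨hSyl.1, hQ'T, ?_, Cfsg.Agent.H51.pCoreOf_le 2 K',
    Cfsg.Agent.H51.le_normalizer_pCoreOf 2 L', ?_⟩
  · exact (Cfsg.Agent.H54.Uq.o2sn K' L' hK'L hsn).trans hQ'T
  · intro E hE hEL hLE
    exact Cfsg.Agent.H51.le_pCoreOf 2 hEL hLE hE

example : Cfsg.Agent.H59.JzK.StKBasic.{u} := kBasic

end Cfsg.Agent.H90.JzK

#print axioms Cfsg.Agent.H90.JzK.kBasic
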