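import Mathlib
import Cfsg.Agent.H47.BG1216Defs2
import Cfsg.Agent.H57.BG1218Defs

set_option autoImplicit false

/-!
# Bender–Glauberman Theorem 13.4 (S1428): the statement and its pieces as `Prop`s (helper90)

`Inst M H P R Q p r q` is a hypothetical configuration ("instance"); the theorem is that no
instance exists, and S1428 follows.  Paper proof: board posts 5888, 5899 (helper90) and 5653
(helper29, Lemma R); sketches of every piece: `notes/helper90_S1428_pieces.md`.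
-/

namespace Cfsg.Agent.H90.BG134

open Cfsg Subgroup Cfsg.Agent.H58.BG10 Cfsg.Agent.H57.BG12 Cfsg.Agent.H76.BG12
  Cfsg.Agent.H47.BG12

universe u

/-- An INSTANCE: `M`, `H` maximal, `p ∈ τ₁(M)`, `P ≤ M` of order `p`, `R ≤ M ∩ C(P)` of prime
order `r ∉ σ(M)`, `N_G(P) ≤ H`, `Q ≠ 1` a `q`-subgroup of `M_σ ∩ C(P)` normalized by `R` with
`C_Q(R) = 1`. -/
structure Inst {G : Type u} [Group G] (M H P R Q : Subgroup G) (p r q : ℕ) : Prop where
  hM : IsCoatom M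
  hH : IsCoatom H
  hp : p ∈ tau1 M
  hPM : P ≤ M
  hP : Nat.card P = p
  hRM : R ≤ M
  hR : Nat.card R = r
  hr : r.Prime
  hrs : r ∉ sigma M
  hRP : R ≤ centralizer (P : Set G)
  hNP : normalizer (P : Set G) ≤ H
  hq : q.Prime
  hQ1 : Q ≠ ⊥
  hQq : IsPGroup q Q
  hQM : Q ≤ sigmaCore M
  hQP : Q ≤ centralizer (P : Set G)
  hRQ : R ≤ normalizer (Q : Set G)
  hQR : Q ⊓ centralizer (R : Set G) = ⊥

/-- S1428 (B&G Theorem 13.4) as a `Prop`. -/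
def St1428 (G : Type u) [Group G] : Prop :=
  ∀ (M : Subgroup G), IsCoatom M → ∀ E : Subgroup G, IsComplIn E (sigmaCore M) M →
    ∀ (p : ℕ), p ∈ tau1 M → ∀ P : Subgroup G, P ≤ E → Nat.card P = p →
    ∀ R : Subgroup G, R ≤ E ⊓ centralizer (P : Set G) → (Nat.card R).Prime →
      sigmaCore M ⊓ centralizer (P : Set G) ≤ sigmaCore M ⊓ centralizer (R : Set G)

/-- There is no instance. -/
def StNoInst (G : Type u) [Group G] : Prop :=
  ∀ (M H P R Q : Subgroup G) (p r q : ℕ), ¬ Inst M H P R Q p r q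

/-- `α(M) ⊆ σ(M)`. -/
def StAlphaSub (G : Type u) [Group G] : Prop :=
  ∀ (M : Subgroup G), IsCoatom M → ∀ q : ℕ, q ∈ alpha M → q ∈ sigma M

/-! ### Pure group theory -/

/-- (UNIQORD) In a subgroup `H` of `q`-rank at most `1`, a `q`-subgroup has at most one subgroup
of order `q`. -/
def StUniqOrd (G : Type u) [Group G] : Prop :=
  ∀ (H : Subgroup G) (q : ℕ), q.Prime → PRankLE q 1 H →
    ∀ S X Y : Subgroup G, IsPGroup q S → S ≤ H → X ≤ S → Y ≤ S → Nat.card X = q →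
      Nat.card Y = q → X = Y

/-- (ORDCOMM) If `H` has `r`-rank at most `1` and `r` divides `|H'|`, every subgroup of order
`r` of `H` lies in `H'`. -/
def StOrdComm (G : Type u) [Group G] : Prop :=
  ∀ (H : Subgroup G) (r : ℕ), r.Prime → PRankLE r 1 H → r ∣ Nat.card ↥⁅H, H⁆ →
    ∀ R : Subgroup G, R ≤ H → Nat.card R = r → R ≤ ⁅H, H⁆

/-- (FROBAB) = (M1) of Lemma R, relative form.  `B/A` abelian of order prime to `|Q|`,
`Q`, `R` act on it, `|R| = r` prime, `C_Q(R) = 1`, `C_{B/A}(Q) = 1 = C_{B/A}(R)`: then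
`B = A`. -/
def StFrobAb (G : Type u) [Group G] : Prop :=
  ∀ (A B Q R : Subgroup G) (r : ℕ), r.Prime → Nat.card R = r → ¬ r ∣ Nat.card Q →
    A ≤ B → B ≤ normalizer (A : Set G) → ⁅B, B⁆ ≤ A →
    Q ≤ normalizer (A : Set G) → Q ≤ normalizer (B : Set G) →
    R ≤ normalizer (A : Set G) → R ≤ normalizer (B : Set G) →
    R ≤ normalizer (Q : Set G) → Q ⊓ centralizer (R : Set G) = ⊥ →
    (A.relIndex B).Coprime (Nat.card Q) →
    (∀ b ∈ B, (∀ g ∈ Q, b * g * b⁻¹ * g⁻¹ ∈ A) → b ∈ A) →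
    (∀ b ∈ B, (∀ g ∈ R, b * g * b⁻¹ * g⁻¹ ∈ A) → b ∈ A) →
    B ≤ A

/-- (FROBFIX) `S` an `s`-group, `Q` a `q`-group, `|R| = r`, three distinct primes, `Q R` acts
on `S`, `R` normalizes `Q`, `C_Q(R) = 1` and `C_S(R) = 1`: then `Q` centralizes `S`. -/
def StFrobFix (G : Type u) [Group G] : Prop :=
  ∀ (s q r : ℕ), s.Prime → q.Prime → r.Prime → s ≠ q → s ≠ r → q ≠ r →
    ∀ S Q R : Subgroup G, IsPGroup s S → IsPGroup q Q → Nat.card R = r →
    Q ≤ normalizer (S : Set G) → R ≤ normalizer (S : Set G) → R ≤ normalizer (Q : Set G) →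
    Q ⊓ centralizer (R : Set G) = ⊥ → S ⊓ centralizer (R : Set G) = ⊥ →
      S ≤ centralizer (Q : Set G)

/-- (FROBCYC) Same setting, but now `C_S(Q)` and `C_S(R)` are cyclic and `C_S(Q R) ≠ 1`:
then `Q` centralizes `S`. -/
def StFrobCyc (G : Type u) [Group G] : Prop :=
  ∀ (s q r : ℕ), s.Prime → q.Prime → r.Prime → s ≠ q → s ≠ r → q ≠ r →
    ∀ S Q R : Subgroup G, IsPGroup s S → IsPGroup q Q → Nat.card R = r →
    Q ≤ normalizer (S : Set G) → R ≤ normalizer (S : Set G) → R ≤ normalizer (Q : Set G) →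
    Q ⊓ centralizer (R : Set G) = ⊥ →
    IsCyclic ↥(S ⊓ centralizer (Q : Set G)) → IsCyclic ↥(S ⊓ centralizer (R : Set G)) →
    S ⊓ centralizer (Q : Set G) ⊓ centralizer (R : Set G) ≠ ⊥ →
      S ≤ centralizer (Q : Set G)

/-! ### Lemma R (B&G 12.18(a)) -/

/-- (LEMR) Lemma R = B&G 12.18(a) (helper29, board post 5653). -/
def StLemR (G : Type u) [Group G] : Prop :=
  ∀ (H : Subgroup G), IsCoatom H → ∀ (r : ℕ), r ∈ tau1 H →
    ∀ R : Subgroup G, R ≤ H → Nat.card R = r →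
    ∀ (q : ℕ), q.Prime → q ≠ r → q ∉ alpha H →
    ∀ Q : Subgroup G, Q ≠ ⊥ → IsPGroup q Q → Q ≤ H → R ≤ normalizer (Q : Set G) →
      Q ⊓ centralizer (R : Set G) = ⊥ →
    ∀ L : Subgroup G, IsCoatom L → L ≠ H → normalizer (Q : Set G) ≤ L →
      alphaCore H ⊓ centralizer (Q : Set G) ⊓ centralizer (R : Set G) = ⊥ ∧
        (alphaCore H ≠ ⊥ → alphaCore H ⊓ centralizer (R : Set G) ≠ ⊥)

/-! ### General tools in a minimal simple group of odd order -/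

/-- (NILCOMM) `H'/H_α` is nilpotent: a `p`-subgroup and a `p'`-subgroup of `H'` commute modulo
`H_α`. -/
def StNilComm (G : Type u) [Group G] : Prop :=
  ∀ (H : Subgroup G), IsCoatom H → ∀ (p : ℕ), p.Prime → ∀ T W : Subgroup G,
    T ≤ ⁅H, H⁆ → W ≤ ⁅H, H⁆ → IsPGroup p T → ¬ p ∣ Nat.card W → ⁅T, W⁆ ≤ alphaCore H

/-- (T1) `τ₁`-transfer: `q ∈ σ(L)`, `S` a Sylow `q`-subgroup of `L`, `N_G(S) ≤ M`; then a prime
`p ∈ τ₁(M)` dividing `|L|` and not in `α(L)` lies in `τ₁(L)`. -/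
def StT1 (G : Type u) [Group G] : Prop :=
  ∀ (M L : Subgroup G), IsCoatom M → IsCoatom L → ∀ (q : ℕ), q ∈ sigma L →
    ∀ S : Subgroup G, IsPGroup q S → S ≤ L → ¬ q ∣ S.relIndex L →
      normalizer (S : Set G) ≤ M →
    ∀ (p : ℕ), p ∈ tau1 M → p ∣ Nat.card L → p ∉ alpha L → p ∈ tau1 L

/-- (T1C) the same for two maximal subgroups with a common `σ`-prime. -/
def StT1c (G : Type u) [Group G] : Prop :=
  ∀ (M H : Subgroup G), IsCoatom M → IsCoatom H → ∀ (q : ℕ), q ∈ sigma M → q ∈ sigma H →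
    ∀ (p : ℕ), p ∈ tau1 M → p ∣ Nat.card H → p ∉ alpha H → p ∈ tau1 H

/-- (TAU2CENT) `t ∈ τ₂(H)`, `X ≤ H` of order `t`; `Q` a `q`-group, `R` of prime order `r`,
`q, r ∉ σ(H)`, `R` normalizes `Q`, `C_Q(R) = 1`, `X` normalizes `Q` and centralizes `R`: then
`X` lies in an elementary abelian subgroup `A` of order `t²` centralizing `Q`. -/
def StTau2Cent (G : Type u) [Group G] : Prop :=
  ∀ (H : Subgroup G), IsCoatom H → ∀ (t : ℕ), t ∈ tau2 H →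
    ∀ X : Subgroup G, X ≤ H → Nat.card X = t →
    ∀ (q : ℕ), q.Prime → q ∉ sigma H → q ≠ t → ∀ Q : Subgroup G, Q ≤ H → IsPGroup q Q →
    ∀ (r : ℕ), r.Prime → r ∉ sigma H → r ≠ q → ∀ R : Subgroup G, R ≤ H → Nat.card R = r →
      R ≤ normalizer (Q : Set G) → Q ⊓ centralizer (R : Set G) = ⊥ →
      X ≤ normalizer (Q : Set G) → X ≤ centralizer (R : Set G) →
      ∃ A : Subgroup G, IsElementaryAbelian t A ∧ Nat.card A = t ^ 2 ∧ X ≤ A ∧
        A ≤ centralizer (Q : Set G)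

/-- (FACTU) `q ∉ σ(H)`, `H` of `q`-rank `1`, `X ≤ H` of order `q`, `R ≤ H` of prime order
`r ∉ σ(H)` normalizing `X` with `C_X(R) = 1`: every complement of `H_σ` in `H` containing `X`
normalizes `X`. -/
def StFactU (G : Type u) [Group G] : Prop :=
  ∀ (H : Subgroup G), IsCoatom H → ∀ (q : ℕ), q.Prime → q ∉ sigma H → PRankLE q 1 H →
    ∀ X : Subgroup G, X ≤ H → Nat.card X = q →
    ∀ (r : ℕ), r.Prime → r ∉ sigma H → r ≠ q → ∀ R : Subgroup G, R ≤ H → Nat.card R = r →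
      R ≤ normalizer (X : Set G) → X ⊓ centralizer (R : Set G) = ⊥ →
    ∀ E : Subgroup G, IsComplIn E (sigmaCore H) H → X ≤ E → E ≤ normalizer (X : Set G)

/-! ### Step 1: basic facts -/

/-- (BASIC) -/
def StBasic (G : Type u) [Group G] : Prop :=
  ∀ (M H P R Q : Subgroup G) (p r q : ℕ), Inst M H P R Q p r q →
    q ∈ sigma M ∧ q ≠ p ∧ q ≠ r ∧ r ≠ p ∧ P ≤ H ∧ Q ≤ H ∧ R ≤ H ∧ ⁅Q, R⁆ = Q ∧
      (∀ g : G, H ≠ M.map (MulAut.conj g).toMonoidHom) ∧ r ∉ sigma H ∧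
      (p ∈ sigma H ∨ p ∈ tau2 H)

/-! ### Step 2: `p ∉ τ₂(H)` -/

/-- (NOAE) case (e) of Step 2. -/
def StNoAe (G : Type u) [Group G] : Prop :=
  ∀ (M L : Subgroup G), IsCoatom M → IsCoatom L → L ≠ M →
    ∀ (p : ℕ), p.Prime → PRankLE p 1 M →
    ∀ P A : Subgroup G, P ≤ M → P ≤ L → Nat.card P = p → A ≤ L →
      IsElementaryAbelian p A → Nat.card A = p ^ 2 →
    ∀ (q : ℕ), q.Prime → q ∈ sigma M → q ∉ sigma L →
    ∀ Y : Subgroup G, Y ≠ ⊥ → normalizer (Y : Set G) ≤ L →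
    ∀ S : Subgroup G, IsPGroup q S → Y ≤ S → S ≤ M → S ≤ L → ¬ q ∣ S.relIndex L → False

/-- (NOAD) case (d) of Step 2. -/
def StNoAd (G : Type u) [Group G] : Prop :=
  ∀ (M L : Subgroup G), IsCoatom M → IsCoatom L →
    (∀ g : G, L ≠ M.map (MulAut.conj g).toMonoidHom) →
    ∀ (p : ℕ), p.Prime → PRankLE p 1 M → ¬ IsIdealPrime p G →
    ∀ A : Subgroup G, A ≤ L → IsElementaryAbelian p A → Nat.card A = p ^ 2 →
    ∀ (q : ℕ), q.Prime → q ≠ p → q ∈ sigma M → q ∈ sigma L →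
    ∀ S : Subgroup G, IsPGroup q S → S ≤ L → ¬ q ∣ S.relIndex L →
      normalizer (S : Set G) ≤ M → False

/-- (NOA) `M` of `p`-rank `1`, `p ∉ σ(M)` not ideal, `P ≤ M` of order `p` inside an elementary
abelian `A` of order `p²`: then `C_{M_σ}(A)` has no nontrivial `q`-subgroup. -/
def StNoA (G : Type u) [Group G] : Prop :=
  ∀ (M : Subgroup G), IsCoatom M → ∀ (p : ℕ), p.Prime → p ∉ sigma M → PRankLE p 1 M →
    ¬ IsIdealPrime p G →
    ∀ P A : Subgroup G, P ≤ M → Nat.card P = p → P ≤ A → IsElementaryAbelian p A →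
      Nat.card A = p ^ 2 →
    ∀ (q : ℕ), q.Prime → ∀ Q : Subgroup G, Q ≠ ⊥ → IsPGroup q Q → Q ≤ sigmaCore M →
      A ≤ centralizer (Q : Set G) → False

/-- (STEP2) -/
def StStep2 (G : Type u) [Group G] : Prop :=
  ∀ (M H P R Q : Subgroup G) (p r q : ℕ), Inst M H P R Q p r q → p ∉ tau2 H

/-! ### Step 3: the types of `q` and `r` in `H` -/

/-- (QTAU2) -/
def StQTau2 (G : Type u) [Group G] : Prop :=
  ∀ (M H : Subgroup G), IsCoatom M → IsCoatom H → H ≠ M → ∀ (q : ℕ), q ∈ sigma M →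
    q ∈ tau2 H → ∀ Q : Subgroup G, Q ≠ ⊥ → IsPGroup q Q → Q ≤ sigmaCore M → Q ≤ H →
    ∀ P : Subgroup G, P ≠ ⊥ → P ≤ sigmaCore H → P ≤ M → Q ≤ centralizer (P : Set G) → False

/-- (QALPHA) -/
def StQAlpha (G : Type u) [Group G] : Prop :=
  ∀ (M H : Subgroup G), IsCoatom M → IsCoatom H →
    (∀ g : G, H ≠ M.map (MulAut.conj g).toMonoidHom) →
    ∀ (q : ℕ), q ∈ sigma M → ∀ Q : Subgroup G, Q ≠ ⊥ → IsPGroup q Q → Q ≤ H →
    ∀ (r : ℕ), r.Prime → r ≠ q → ∀ R : Subgroup G, Nat.card R = r → R ≤ ⁅H, H⁆ →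
      R ≤ normalizer (Q : Set G) → Q ⊓ centralizer (R : Set G) = ⊥ → False

/-- (STEP3) -/
def StStep3 (G : Type u) [Group G] : Prop :=
  ∀ (M H P R Q : Subgroup G) (p r q : ℕ), Inst M H P R Q p r q → p ∈ sigma H →
    r ∈ tau1 H ∧ (q ∈ sigma H ∨ q ∈ tau3 H)

/-! ### Step 4: Case III (`q ∈ τ₃(H)`) -/

/-- (SETUP4) -/
def St4Setup (G : Type u) [Group G] : Prop :=
  ∀ (M H P R Q : Subgroup G) (p r q : ℕ), Inst M H P R Q p r q → p ∈ sigma H →
    q ∉ sigma H → p ∉ alpha H →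
    ∃ T : Subgroup G, IsPGroup p T ∧ ¬ p ∣ T.index ∧ P ≤ T ∧ T ≤ sigmaCore H ∧
      T ≤ centralizer (Q : Set G) ∧ normalizer (T : Set G) ≤ H

/-- (4I) `p ∈ σ(L)`. -/
def St4i (G : Type u) [Group G] : Prop :=
  ∀ (M H L : Subgroup G), IsCoatom M → IsCoatom H → IsCoatom L →
    ∀ (p : ℕ), p ∈ tau1 M → p ∈ sigma L → p ∉ alpha H →
    ∀ P : Subgroup G, P ≠ ⊥ → IsPGroup p P → P ≤ M → P ≤ L →
    ∀ T : Subgroup G, IsPGroup p T → ¬ p ∣ T.index → T ≤ H → T ≤ L →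
    ∀ (q : ℕ), q ∈ sigma M → ∀ X : Subgroup G, X ≠ ⊥ → IsPGroup q X → X ≤ M →
      normalizer (X : Set G) ≤ L → False

/-- (4II) `p ∈ τ₂(L)`. -/
def St4ii (G : Type u) [Group G] : Prop :=
  ∀ (H L : Subgroup G), IsCoatom H → IsCoatom L → L ≠ H →
    ∀ (p : ℕ), p ∈ sigma H → p ∈ tau2 L →
    ∀ T : Subgroup G, IsPGroup p T → ¬ p ∣ T.index → T ≤ H → T ≤ L →
    ∀ (q : ℕ), q.Prime → PRankLE q 1 H → ∀ X : Subgroup G, X ≤ H → Nat.card X = q →
      normalizer (X : Set G) ≤ L → False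

/-- (4III) `p ∈ τ₃(L)`. -/
def St4iii (G : Type u) [Group G] : Prop :=
  ∀ (M H L : Subgroup G), IsCoatom M → IsCoatom H → IsCoatom L →
    ∀ (p : ℕ), p ∈ tau1 M → p ∈ tau3 L →
    ∀ P : Subgroup G, P ≤ M → P ≤ L → Nat.card P = p → normalizer (P : Set G) ≤ H →
    ∀ (q : ℕ), q ∈ sigma M → PRankLE q 1 H → ∀ X : Subgroup G, X ≤ M → Nat.card X = q →
      normalizer (X : Set G) ≤ L → False

/-- (4IV) `p ∤ |L'|` (in particular `p ∈ τ₁(L)`). -/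
def St4iv (G : Type u) [Group G] : Prop :=
  ∀ (H L : Subgroup G), IsCoatom H → IsCoatom L →
    ∀ (p : ℕ), p ∈ sigma H → p ∉ alpha H → ¬ p ∣ Nat.card ↥⁅L, L⁆ →
    ∀ T : Subgroup G, T ≠ ⊥ → IsPGroup p T → ¬ p ∣ T.index → T ≤ sigmaCore H → T ≤ L →
      normalizer (T : Set G) ≤ H →
    ∀ (q : ℕ), q.Prime → q ∉ sigma H → PRankLE q 1 H →
    ∀ X : Subgroup G, X ≤ H → Nat.card X = q → X ≤ centralizer (T : Set G) →
      normalizer (X : Set G) ≤ L →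
    ∀ (r : ℕ), r.Prime → r ∉ sigma H → r ≠ q → ∀ R : Subgroup G, R ≤ H → Nat.card R = r →
      R ≤ normalizer (X : Set G) → X ⊓ centralizer (R : Set G) = ⊥ → False

/-- (CASE3Q) Case III with `|Q| = q`. -/
def StCaseIIIq (G : Type u) [Group G] : Prop :=
  ∀ (M H P R Q : Subgroup G) (p r q : ℕ), Inst M H P R Q p r q → Nat.card Q = q →
    p ∈ sigma H → r ∈ tau1 H → q ∈ tau3 H → False

/-- (CASE3) Case III. -/
def StCaseIII (G : Type u) [Group G] : Prop :=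
  ∀ (M H P R Q : Subgroup G) (p r q : ℕ), Inst M H P R Q p r q →
    p ∈ sigma H → r ∈ tau1 H → q ∈ tau3 H → False

/-! ### Step 5: Case I (`q ∈ σ(H)`) -/

/-- (5NORM) -/
def St5Norm (G : Type u) [Group G] : Prop :=
  ∀ (M H : Subgroup G), IsCoatom M → IsCoatom H →
    (∀ g : G, H ≠ M.map (MulAut.conj g).toMonoidHom) →
    ∀ (q : ℕ), q ∈ sigma M → q ∈ sigma H →
    ∀ S : Subgroup G, IsPGroup q S → ¬ q ∣ S.index → S ≤ M → S ≤ H →
      alphaCore M ⊓ H ≤ centralizer (S : Set G)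

/-- (5B) -/
def St5b (G : Type u) [Group G] : Prop :=
  ∀ (M H P R Q : Subgroup G) (p r q : ℕ), Inst M H P R Q p r q → q ∈ sigma H →
    r ∈ tau1 H → normalizer (Q : Set G) ≤ H →
    r ∈ tau1 M ∧ ∃ (s : ℕ) (Y : Subgroup G), s ∈ alpha M ∧ Y ≠ ⊥ ∧ IsPGroup s Y ∧
      Y ≤ sigmaCore M ∧ Y ≤ centralizer (R : Set G) ∧ P ≤ normalizer (Y : Set G) ∧
      Y ⊓ centralizer (P : Set G) = ⊥

/-- (CASE1) Case I. -/
def StCaseI (G : Type u) [Group G] : Prop :=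
  ∀ (M H P R Q : Subgroup G) (p r q : ℕ), Inst M H P R Q p r q →
    p ∈ sigma H → r ∈ tau1 H → q ∈ sigma H → False

/-! ### Assembly -/

/-- No instance exists, from the steps. -/
theorem noInst {G : Type u} [Group G] (hB : StBasic G) (h2 : StStep2 G) (h3 : StStep3 G)
    (hIII : StCaseIII G) (hI : StCaseI G) : StNoInst G := by
  intro M H P R Q p r q hI'
  obtain ⟨-, -, -, -, -, -, -, -, -, -, hpH⟩ := hB M H P R Q p r q hI'
  have hps : p ∈ sigma H := hpH.resolve_right (h2 M H P R Q p r q hI')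
  obtain ⟨hr, hq⟩ := h3 M H P R Q p r q hI' hps
  rcases hq with hq | hq
  · exact hI M H P R Q p r q hI' hps hr hq
  · exact hIII M H P R Q p r q hI' hps hr hq

end Cfsg.Agent.H90.BG134
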