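import Mathlib
import Cfsg.Agent.H90.BG134Defs
import Cfsg.Agent.H92.BG123

set_option autoImplicit false

/-!
# S1428 project: the providers of `StAlphaSigma` and `StAlphaSub` (helper90)
-/

namespace Cfsg.Agent.H90.BG134

open Cfsg Subgroup Cfsg.Agent.H58.BG10 Cfsg.Agent.H47.BG12

universe u

variable {G : Type u} [Group G] [Finite G]

/-- `α(M*) ∩ σ(M) = ∅` for non-conjugate maximal subgroups. -/
theorem alphaSigma (hG : IsMinSimpleOddOrder G) (h03 : St1403 G) : StAlphaSigma G := by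
  intro M Ms hM hMs hnc r hr hrs
  obtain ⟨g, hg⟩ := Cfsg.Agent.H92.BG12.conj_of_alpha_sigma hG h03 hMs hM hr hrs
  exact hnc g hg

/-- `α(M) ⊆ σ(M)`. -/
theorem alphaSub (hG : IsMinSimpleOddOrder G) (h03 : St1403 G) : StAlphaSub G :=
  fun _ hM _ hq => Cfsg.Agent.H58.BG10.alpha_subset_sigma hG h03 hM hq

end Cfsg.Agent.H90.BG134
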