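import Mathlib
import Cfsg.Agent.H31.BG14TI
import Cfsg.Agent.H31.BG14UMain
import Cfsg.Agent.Lib.Helper30.CoprimeAb
import Cfsg.Agent.S1426

set_option autoImplicit false

/-!
# B&G Theorem I(d)-type statement S1365, from the regular action of `K` on `U` (helper90)

`M = K U M_σ` with `K ≠ 1` and `C_U(k) = 1` for all `k ∈ K`, `k ≠ 1` (S1353):
`M' = U M_σ` and `C_{M_σ}(K) ≤ M''`.
-/

namespace Cfsg.Agent.H90.BG1365

open Cfsg Subgroup
open scoped commutatorElement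

universe u

variable {G : Type u} [Group G]

/-- A subgroup normalizing `H₁` and `H₂` normalizes `⁅H₁, H₂⁆`. -/
theorem le_normalizer_comm {H₁ H₂ L : Subgroup G} (h₁ : L ≤ normalizer (H₁ : Set G))
    (h₂ : L ≤ normalizer (H₂ : Set G)) : L ≤ normalizer ((⁅H₁, H₂⁆ : Subgroup G) : Set G) := by
  intro g hg
  have key : ∀ g : G, g ∈ normalizer (H₁ : Set G) → g ∈ normalizer (H₂ : Set G) →
      ∀ h ∈ ⁅H₁, H₂⁆, g * h * g⁻¹ ∈ ⁅H₁, H₂⁆ := by
    intro g hg1 hg2 h hh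
    have e1 : H₁.map (MulAut.conj g).toMonoidHom ≤ H₁ := by
      rintro _ ⟨a, ha, rfl⟩
      exact (mem_normalizer_iff.mp hg1 a).mp ha
    have e2 : H₂.map (MulAut.conj g).toMonoidHom ≤ H₂ := by
      rintro _ ⟨a, ha, rfl⟩
      exact (mem_normalizer_iff.mp hg2 a).mp ha
    have h3 : (MulAut.conj g).toMonoidHom h ∈ (⁅H₁, H₂⁆).map (MulAut.conj g).toMonoidHom :=
      Subgroup.mem_map_of_mem _ hh
    rw [Subgroup.map_commutator] at h3
    exact Subgroup.commutator_mono e1 e2 h3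
  rw [mem_normalizer_iff]
  intro h
  refine ⟨key g (h₁ hg) (h₂ hg) h, fun hh => ?_⟩
  have := key g⁻¹ (inv_mem (h₁ hg)) (inv_mem (h₂ hg)) _ hh
  simpa [mul_assoc] using this

variable [Finite G] {M K U : Subgroup G}

/-- `U ≤ M'` when some `k ∈ K` acts on `U` without fixed points. -/
theorem U_le_comm (hKU : IsSigmaDecomposition M K U) {k : G} (hk : k ∈ K)
    (hfix : U ⊓ centralizer ({k} : Set G) = ⊥) : U ≤ ⁅M, M⁆ := by
  have hkN := hKU.normal hk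
  have hkM : k ∈ M := hKU.hall.1 hk
  have hUM := hKU.compl.1
  -- the map `v ↦ v⁻¹ * (k v k⁻¹)` on `U`
  let φ : U → U := fun v => ⟨(v : G)⁻¹ * (k * v * k⁻¹),
    mul_mem (inv_mem v.2) ((mem_normalizer_iff.mp hkN v).mp v.2)⟩
  have hinj : Function.Injective φ := by
    intro v w hvw
    have h1 : (v : G)⁻¹ * (k * v * k⁻¹) = (w : G)⁻¹ * (k * w * k⁻¹) := congrArg Subtype.val hvw
    have h2 : (w : G) * (v : G)⁻¹ ∈ U ⊓ centralizer ({k} : Set G) := by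
      refine Subgroup.mem_inf.mpr ⟨mul_mem w.2 (inv_mem v.2), ?_⟩
      rw [mem_centralizer_iff]
      intro y hy
      rw [Set.mem_singleton_iff] at hy
      rw [hy]
      have h3 : k * (v : G) * k⁻¹ = (v : G) * (w : G)⁻¹ * (k * w * k⁻¹) := by
        rw [mul_assoc (v : G), ← h1]; group
      have h4 : k * (v : G) = (v : G) * (w : G)⁻¹ * k * w := by
        have := congrArg (· * k) h3
        simpa [mul_assoc] using this
      calc k * ((w : G) * (v : G)⁻¹) = k * ((w : G) * (v : G)⁻¹) := rfl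
        _ = (w : G) * (v : G)⁻¹ * k := by
          have h5 : (w : G) * (v : G)⁻¹ * (k * (v : G)) = k * w := by
            rw [h4]; group
          have h6 : (w : G) * (v : G)⁻¹ * k = k * w * (v : G)⁻¹ := by
            rw [← h5]; group
          rw [h6]; group
    rw [hfix, mem_bot] at h2
    exact Subtype.ext (by
      have : (w : G) = v := by
        have := congrArg (· * (v : G)) h2
        simpa using this
      exact this.symm)
  have hsurj : Function.Surjective φ := Finite.surjective_of_injective hinj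
  intro u hu
  obtain ⟨v, hv⟩ := hsurj ⟨u, hu⟩
  have h1 : (v : G)⁻¹ * (k * v * k⁻¹) = u := congrArg Subtype.val hv
  have h2 : u = ⁅(v : G)⁻¹, k⁆ := by
    rw [commutatorElement_def, ← h1]; group
  rw [h2]
  exact Subgroup.commutator_mem_commutator (inv_mem (hUM v.2)) hkM

/-- `M' ≤ U M_σ`. -/
theorem comm_le_U_sup (hKU : IsSigmaDecomposition M K U) : ⁅M, M⁆ ≤ U ⊔ sigmaCore M := by
  have hKc : IsCyclic K := hKU.cyclic
  have hσM : sigmaCore M ≤ M := Cfsg.Agent.Lib.Helper30.piCoreOf_le (sigma M) M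
  have hMσ : M ≤ normalizer (sigmaCore M : Set G) :=
    Cfsg.Agent.Lib.Helper30.le_normalizer_piCoreOf (sigma M) M
  have hN : M ≤ normalizer ((U ⊔ sigmaCore M : Subgroup G) : Set G) :=
    Cfsg.Agent.H31.BG14U.le_normalizer_U_sup hKU
  have hKσ : K ≤ normalizer (sigmaCore M : Set G) := hKU.hall.1.trans hMσ
  -- every element of `M` is `n * k`
  have hdec : ∀ m ∈ M, ∃ n ∈ U ⊔ sigmaCore M, ∃ k ∈ K, m = n * k := by
    intro m hm
    obtain ⟨a, ha, b, hb, rfl⟩ := hKU.compl.2.2.2 m hm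
    have hb' : b ∈ ((K ⊔ sigmaCore M : Subgroup G) : Set G) := hb
    rw [Subgroup.coe_mul_of_left_le_normalizer_right K (sigmaCore M) hKσ] at hb'
    obtain ⟨k, hk, s, hs, hks⟩ := hb'
    have hks' : k * s = b := hks
    refine ⟨a * (k * s * k⁻¹), mul_mem (Subgroup.mem_sup_left ha)
      (Subgroup.mem_sup_right ((mem_normalizer_iff.mp (hKσ hk) s).mp hs)), k, hk, ?_⟩
    rw [← hks']; group
  rw [Subgroup.commutator_le]
  intro g₁ hg₁ g₂ hg₂
  obtain ⟨n₁, hn₁, k₁, hk₁, rfl⟩ := hdec g₁ hg₁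
  obtain ⟨n₂, hn₂, k₂, hk₂, rfl⟩ := hdec g₂ hg₂
  have hcomm : k₁ * k₂ = k₂ * k₁ := by
    have := (IsCyclic.isMulCommutative (α := K)).is_comm.comm (⟨k₁, hk₁⟩ : K) ⟨k₂, hk₂⟩
    exact congrArg Subtype.val this
  have e : ⁅n₁ * k₁, n₂ * k₂⁆ = n₁ * (k₁ * n₂ * k₁⁻¹) * (k₂ * n₁⁻¹ * k₂⁻¹) * n₂⁻¹ := by
    rw [commutatorElement_def]
    have h1 : k₁ * n₂ * k₂ * (n₁ * k₁)⁻¹ * (n₂ * k₂)⁻¹
        = k₁ * n₂ * k₁⁻¹ * (k₁ * k₂) * k₁⁻¹ * n₁⁻¹ * k₂⁻¹ * n₂⁻¹ := by group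
    calc n₁ * k₁ * (n₂ * k₂) * (n₁ * k₁)⁻¹ * (n₂ * k₂)⁻¹
        = n₁ * (k₁ * n₂ * k₂ * (n₁ * k₁)⁻¹ * (n₂ * k₂)⁻¹) := by group
      _ = n₁ * (k₁ * n₂ * k₁⁻¹ * (k₁ * k₂) * k₁⁻¹ * n₁⁻¹ * k₂⁻¹ * n₂⁻¹) := by rw [h1]
      _ = n₁ * (k₁ * n₂ * k₁⁻¹ * (k₂ * k₁) * k₁⁻¹ * n₁⁻¹ * k₂⁻¹ * n₂⁻¹) := by rw [hcomm]
      _ = n₁ * (k₁ * n₂ * k₁⁻¹) * (k₂ * n₁⁻¹ * k₂⁻¹) * n₂⁻¹ := by group
  rw [e]
  have hk₁N := hN (hKU.hall.1 hk₁)
  have hk₂N := hN (hKU.hall.1 hk₂)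
  exact mul_mem (mul_mem (mul_mem hn₁ ((mem_normalizer_iff.mp hk₁N n₂).mp hn₂))
    ((mem_normalizer_iff.mp hk₂N n₁⁻¹).mp (inv_mem hn₁))) (inv_mem hn₂)

/-- S1365 from the regular action of `K` on `U` (the conclusion of S1353). -/
theorem main (hG : IsMinSimpleOddOrder G) (hM : IsCoatom M)
    (hKU : IsSigmaDecomposition M K U) (hK1 : K ≠ ⊥)
    (h53 : ∀ k ∈ K, k ≠ 1 → U ⊓ centralizer ({k} : Set G) = ⊥) :
    ⁅M, M⁆ = U ⊔ sigmaCore M ∧
      (sigmaCore M ⊓ centralizer (K : Set G)) ≤ ⁅⁅M, M⁆, ⁅M, M⁆⁆ := by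
  have h50 := Cfsg.Agent.H58.BG10.st1350 hG
  have hσM : sigmaCore M ≤ M := Cfsg.Agent.Lib.Helper30.piCoreOf_le (sigma M) M
  have hMσ : M ≤ normalizer (sigmaCore M : Set G) :=
    Cfsg.Agent.Lib.Helper30.le_normalizer_piCoreOf (sigma M) M
  have hE : IsComplIn (U ⊔ K) (sigmaCore M) M := Cfsg.Agent.H31.BG14U.compl_UK h50 hM hKU
  have h26 := (Cfsg.Agent.S1426.result hG M hM (U ⊔ K) hE).2.1
  have hσc : sigmaCore M ≤ ⁅M, M⁆ := by
    rw [← h26]
    exact Subgroup.commutator_mono hσM hE.1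
  obtain ⟨k, hk, hk1⟩ : ∃ k ∈ K, k ≠ 1 := by
    by_contra hcon
    apply hK1
    rw [Subgroup.eq_bot_iff_forall]
    intro y hy
    by_contra hy1
    exact hcon ⟨y, hy, hy1⟩
  have hUc : U ≤ ⁅M, M⁆ := U_le_comm hKU hk (h53 k hk hk1)
  have hcomm : ⁅M, M⁆ = U ⊔ sigmaCore M :=
    le_antisymm (comm_le_U_sup hKU) (sup_le hUc hσc)
  refine ⟨hcomm, ?_⟩
  -- second part
  have hcM : ⁅M, M⁆ ≤ M := by
    rw [hcomm]; exact sup_le hKU.compl.1 hσM
  have hMc : M ≤ normalizer ((⁅M, M⁆ : Subgroup G) : Set G) :=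
    le_normalizer_comm le_normalizer le_normalizer
  set N1 : Subgroup G := ⁅sigmaCore M, ⁅M, M⁆⁆ with hN1
  have hMN1 : M ≤ normalizer (N1 : Set G) := le_normalizer_comm hMσ hMc
  have hN1σ : N1 ≤ sigmaCore M := by
    rw [hN1, Subgroup.commutator_le]
    intro d hd m hm
    rw [commutatorElement_def]
    have : m * d⁻¹ * m⁻¹ ∈ sigmaCore M :=
      (mem_normalizer_iff.mp (hMσ (hcM hm)) d⁻¹).mp (inv_mem hd)
    have e : d * m * d⁻¹ * m⁻¹ = d * (m * d⁻¹ * m⁻¹) := by group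
    rw [e]
    exact mul_mem hd this
  have hcop : (Nat.card ↥(U ⊔ K)).Coprime (Nat.card ↥(sigmaCore M)) := by
    rw [Cfsg.Agent.H73.BG12.card_eq_relIndex_of_isComplIn hE]
    apply Nat.Coprime.symm
    apply Nat.coprime_of_dvd
    intro r hr hrd
    exact (h50 M hM).1.2.2 r hr ((h50 M hM).1.2.1 r hr hrd)
  intro x hx
  have hx1 : x ∈ N1 := by
    refine Cfsg.Agent.Lib.Helper30.mem_of_fixed_of_abelian_section (A := U ⊔ K)
      (D := sigmaCore M) (M := N1) (hE.1.trans hMσ) (hE.1.trans hMN1) (hσM.trans hMN1) hN1σ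
      (Subgroup.commutator_mono le_rfl hσc) hcop ?_ hx.1 ?_
    · rw [h26]; exact le_sup_left
    · intro a ha
      have ha' : a ∈ ((U ⊔ K : Subgroup G) : Set G) := ha
      rw [Subgroup.coe_mul_of_right_le_normalizer_left U K hKU.normal] at ha'
      obtain ⟨u, hu, k', hk', huk⟩ := ha'
      have huk' : u * k' = a := huk
      have hxk : k' * x = x * k' := by
        have := (mem_centralizer_iff.mp hx.2) k' hk'
        exact this
      have e : a * x * a⁻¹ * x⁻¹ = ⁅u, x⁆ := by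
        rw [commutatorElement_def, ← huk']
        have : u * k' * x * (u * k')⁻¹ * x⁻¹ = u * (k' * x) * k'⁻¹ * u⁻¹ * x⁻¹ := by group
        rw [this, hxk]; group
      rw [e, hN1, ← Subgroup.commutator_comm]
      exact Subgroup.commutator_mem_commutator (hUc hu) hx.1
  exact Subgroup.commutator_mono hσc le_rfl hx1

end Cfsg.Agent.H90.BG1365
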