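import Mathlib
import Cfsg.Agent.H59.JzKillDefs
import Cfsg.Agent.S2950
import Cfsg.Agent.Helper55.J48

/-!
# K-Z (sub-piece of JZ-KILL, S2951 / S2952): an involution of `V = Ω₁Z(O₂(L))` inside `O₂(L')`
-/

set_option autoImplicit false
open Cfsg

namespace Cfsg.Agent.H90.JzK

open Cfsg.Agent.H64.Jz Cfsg.Agent.H59.JzK

universe u

/-- `Ω₁(Z(P)) ≠ 1` for a nontrivial 2-group `P` (an involution of the centre). -/
theorem kz_exists_central_invol {G : Type u} [Group G] [Finite G] (P : Subgroup G)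
    (hP : IsPGroup 2 ↥P) (hP1 : P ≠ ⊥) :
    ∃ z : G, z ≠ 1 ∧ z ∈ P ∧ z ∈ Subgroup.centralizer (P : Set G) ∧ z * z = 1 := by
  haveI : Fact (Nat.Prime 2) := ⟨Nat.prime_two⟩
  haveI : Nontrivial ↥P := (Subgroup.nontrivial_iff_ne_bot P).mpr hP1
  haveI := hP.center_nontrivial
  have h2 : 2 ∣ Nat.card ↥(Subgroup.center ↥P) := by
    obtain ⟨n, hn⟩ := (hP.to_subgroup (Subgroup.center ↥P)).exists_card_eq
    have hgt : 1 < Nat.card ↥(Subgroup.center ↥P) := Finite.one_lt_card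
    rw [hn] at hgt ⊢
    cases n with
    | zero => simp at hgt
    | succ n => exact Dvd.intro_left _ (pow_succ 2 n).symm
  obtain ⟨z, hz⟩ := exists_prime_orderOf_dvd_card' 2 h2
  refine ⟨((z : ↥P) : G), ?_, (z : ↥P).2, ?_, ?_⟩
  · intro h1
    have hz1 : z = 1 := Subtype.ext (Subtype.ext h1)
    rw [hz1, orderOf_one] at hz
    omega
  · rw [Subgroup.mem_centralizer_iff]
    intro h hh
    have h' := (Subgroup.mem_center_iff.mp z.2) ⟨h, hh⟩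
    exact congrArg Subtype.val h'
  · have h' : z ^ 2 = 1 := by rw [← hz]; exact pow_orderOf_eq_one z
    have h'' := congrArg (fun t : ↥(Subgroup.center ↥P) => ((t : ↥P) : G)) h'
    rw [pow_two] at h''
    simpa using h''

/-- K-Z. -/
theorem kZ : StKZ.{u} := by
  intro G _ _ S M K L T' K' L' hR
  obtain ⟨hB, -, hB', -⟩ := hR
  obtain ⟨hZN, hO, hM, hMJ, hT, -, hK, hLmax, hKL⟩ := hB
  obtain ⟨hc2, hsolv, hZ⟩ := hZN
  obtain ⟨-, -, hL2, hNJL, hT', hT'S, hK', hL'max, hK'L'⟩ := hB'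
  -- `S` is Sylow in `L`
  obtain ⟨L₀, -, -, huniq, -, hSyl₀⟩ :=
    Cfsg.Agent.S2950.result hc2 hsolv hZ hO S M hM hMJ (S : Subgroup G) hT K hK
  have hLL₀ : L = L₀ := huniq L hLmax hKL
  have hSyl : IsSylowTwoIn (S : Subgroup G) L := by rw [hLL₀]; exact hSyl₀
  -- `T'` is Sylow in `L'`
  obtain ⟨L₁, -, -, huniq₁, -, hSyl₁⟩ :=
    Cfsg.Agent.S2950.result hc2 hsolv hZ hO S L hL2 hNJL T' hT' K' hK'
  have hLL₁ : L' = L₁ := huniq₁ L' hL'max hK'L'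
  have hSyl' : IsSylowTwoIn T' L' := by rw [hLL₁]; exact hSyl₁
  -- an involution of `Z(S)`
  have hS2 : IsPGroup 2 ↥(S : Subgroup G) := S.isPGroup'
  have hSne : (S : Subgroup G) ≠ ⊥ := hT.1.2.1
  obtain ⟨z, hz1, hzS, hzCS, hzz⟩ := kz_exists_central_invol (S : Subgroup G) hS2 hSne
  -- `z ∈ O₂(L)`
  have hQS : pCoreOf 2 L ≤ (S : Subgroup G) :=
    Cfsg.Agent.Helper55.J48.pCoreOf_le_of_sylowIn hSyl
  have hzC : z ∈ Subgroup.centralizer (pCoreOf 2 L : Set G) :=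
    Subgroup.centralizer_le (SetLike.coe_subset_coe.mpr hQS) hzCS
  have hzQ : z ∈ pCoreOf 2 L := Cfsg.Agent.Helper55.J48.centralizer_pCoreOf_le hc2 hL2 hzC
  have hzV : z ∈ Vof L := by
    unfold Vof omegaCenterOf omegaOne
    apply Subgroup.subset_closure
    exact ⟨⟨hzQ, hzC⟩, by rw [pow_two]; exact hzz⟩
  -- `z ∈ O₂(L')`
  have hQ'T : pCoreOf 2 L' ≤ T' := Cfsg.Agent.Helper55.J48.pCoreOf_le_of_sylowIn hSyl'
  have hzC' : z ∈ Subgroup.centralizer (pCoreOf 2 L' : Set G) :=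
    Subgroup.centralizer_le (SetLike.coe_subset_coe.mpr (hQ'T.trans hT'S)) hzCS
  have hzQ' : z ∈ pCoreOf 2 L' :=
    Cfsg.Agent.Helper55.J48.centralizer_pCoreOf_le hc2 hL'max.1 hzC'
  exact ⟨z, hzV, hz1, hzQ'⟩

example : Cfsg.Agent.H59.JzK.StKZ.{u} := kZ

end Cfsg.Agent.H90.JzK

#print axioms Cfsg.Agent.H90.JzK.kZ
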