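import Cfsg.Agent.H5.JxKA
import Cfsg.Agent.H66.JxPSide
import Cfsg.Agent.H53.JxPF

/-!
# S2953 (JY-KILL2), case `V ≤ Q₁`: `ka : StKA`, hypothesis-free

Wiring of helper5's `ka_of_pside` with helper53's `pf` and helper66's `pside`.
-/

set_option autoImplicit false

namespace Cfsg.Agent.H90.Jx

universe u

theorem ka : Cfsg.Agent.H52.Jx.StKA.{u} :=
  Cfsg.Agent.H5.Jx.ka_of_pside Cfsg.Agent.H53.Jx.pf
    (fun S M T K L hB => (Cfsg.Agent.H66.Jx.pside S M T K L hB).2.1)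
    (fun S M T K L hB => (Cfsg.Agent.H66.Jx.pside S M T K L hB).1)

example : Cfsg.Agent.H52.Jx.StKA.{u} := ka.{u}

end Cfsg.Agent.H90.Jx

#print axioms Cfsg.Agent.H90.Jx.ka
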