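import Cfsg.Agent.H90.NSLam
import Cfsg.Agent.H86.FusSat
import Cfsg.Agent.H86.FusNormal
import Cfsg.Agent.H86.FusGroup
import Cfsg.Agent.H86.FusSylow
import Cfsg.Agent.H87.Invariant
import Cfsg.Agent.H87.PrimeIdx

set_option autoImplicit false

/-!
S5121 team project, piece A11: every map of `E` on `R = T ∩ O_p(G)` is conjugation by an element
`m` with `Λ(m)`. This is where the extension condition of normality is used.
-/

namespace Cfsg.Agent.H90.NS

open Cfsg Cfsg.FusionSystem Cfsg.Agent.H86 Cfsg.Agent.H87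
open scoped Pointwise

universe u

variable {G : Type u} [Group G]

/-- `α` is induced on `P` by conjugation by `g`. -/
def Ind {P : Subgroup G} (α : MulAut P) (g : G) : Prop :=
  ∀ x : P, ((α x : P) : G) = g * x * g⁻¹

lemma Ind.mul {P : Subgroup G} {α β : MulAut P} {a b : G} (ha : Ind α a) (hb : Ind β b) :
    Ind (α * β) (a * b) := fun x => by
  show ((α (β x) : P) : G) = _
  rw [ha, hb]
  group

lemma Ind.inv {P : Subgroup G} {α : MulAut P} {a : G} (ha : Ind α a) : Ind α⁻¹ a⁻¹ := fun x => by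
  have h := ha (α⁻¹ x)
  have e : α (α⁻¹ x) = x := by
    show (α * α⁻¹) x = x
    rw [mul_inv_cancel]
    rfl
  rw [e] at h
  rw [h]
  group

lemma Ind.congr {P : Subgroup G} {α : MulAut P} {a b : G} (ha : Ind α a) (hab : a = b) :
    Ind α b := hab ▸ ha

/-- The automorphisms of `R` induced by elements with `Λ`. -/
def lamAut [Finite G] (p : ℕ) (S T : Subgroup G) (hRn : (rSub p T).Normal) :
    Subgroup (MulAut (rSub p T)) where
  carrier := {α | ∃ m, Lam p S T m ∧ Ind α m}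
  mul_mem' := by
    rintro α β ⟨m, hm, Hm⟩ ⟨n, hn, Hn⟩
    exact ⟨m * n, lam_mul hRn hm hn, Hm.mul Hn⟩
  one_mem' := ⟨1, lam_one p S T, fun x => by simp⟩
  inv_mem' := by
    rintro α ⟨m, hm, Hm⟩
    exact ⟨m⁻¹, lam_inv hRn hm, Hm.inv⟩

lemma mem_lamAut [Finite G] {p : ℕ} {S T : Subgroup G} {hRn : (rSub p T).Normal}
    {α : MulAut (rSub p T)} : α ∈ lamAut p S T hRn ↔ ∃ m, Lam p S T m ∧ Ind α m := Iff.rfl

lemma fn_self {T : Subgroup G} [Finite T] (E : FusionSystem T) : E.IsFullyNormalized T := by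
  refine ⟨le_rfl, fun Q _ => ?_⟩
  have hle : normalizerIn T Q ≤ normalizerIn T T := by
    intro x hx
    exact ⟨hx.1, Subgroup.le_normalizer hx.1⟩
  have : Finite (normalizerIn T T) := finite_of_le (S := T) inf_le_left
  exact Nat.card_le_card_of_injective (Subgroup.inclusion hle) (Subgroup.inclusion_injective hle)

theorem a11 : A11Stmt.{u} := by
  intro G _ _ p _ S T E hyp hsc hRn hrnc han
  obtain ⟨hG, hTS, hE⟩ := hyp
  obtain ⟨⟨hEsat, hFsat, hinv⟩, hext⟩ := hE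
  obtain ⟨hEF, hTsc, -, -⟩ := (isInvariantIn_iff hTS).1 hinv
  have hSp : IsPGroup p (S : Subgroup G) := S.isPGroup'
  have hTp : IsPGroup p T := hSp.to_le hTS
  have hRT : rSub p T ≤ T := inf_le_left
  have hRQ : rSub p T ≤ pCore p G := inf_le_right
  have hQn : (pCore p G).Normal := pCore_normal p G
  have hQS : pCore p G ≤ S := pCore_le_sylow S
  have hRsc : E.StronglyClosed (rSub p T) := IsNormal.stronglyClosed hrnc.1
  have himgR : ∀ f : G → G, Mor E (rSub p T) f → imgS (rSub p T) f = rSub p T := fun f hf =>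
    imgS_eq_of_maps hf ((stronglyClosed_iff.1 hRsc).2 _ f le_rfl hf)
  have hRfn : E.IsFullyNormalized (rSub p T) := ⟨hRT, fun Q' hQ' => by
    obtain ⟨f, hf, rfl⟩ := Cfsg.Agent.H86.isConj_iff.1 hQ'
    rw [himgR f hf]⟩
  obtain ⟨hRfc, -, Sy, hSy⟩ := saturated_fullyNormalized hTp hEsat hRfn
  have hRrec : E.IsReceptive (rSub p T) := saturated_receptive_of_fullyCentralized hTp hEsat hRfc
  have hTfn : E.IsFullyNormalized T := fn_self E
  obtain ⟨-, -, SyT, hSyT⟩ := saturated_fullyNormalized hTp hEsat hTfn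
  suffices hmain : E.autGroup (rSub p T) ≤ lamAut p S T hRn by
    intro f hf
    have hα := mkAut_mem hf (himgR f hf)
    obtain ⟨m, hm, Hm⟩ := hmain hα
    exact ⟨m, hm, fun x hx => by rw [← Hm ⟨x, hx⟩]; rfl⟩
  -- elements of `Aut_E(R)` are induced by elements of `G`
  have hindG : ∀ χ : E.autGroup (rSub p T), ∃ g : G, Ind (χ : MulAut (rSub p T)) g := by
    intro χ
    have h1 : Mor E (rSub p T) (autFun _ (χ : MulAut (rSub p T))) := (mem_autGroup_iff hRT _).1 χ.2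
    obtain ⟨-, -, g, hg⟩ := mor_groupFusionSystem_iff.1 (mor_of_subsystem hEF h1)
    exact ⟨g, fun x => by rw [← autFun_apply]; exact hg x x.2⟩
  -- elements of the Sylow subgroup are induced by elements of `T`
  have hindT : ∀ σ : E.autGroup (rSub p T), σ ∈ (Sy : Subgroup (E.autGroup (rSub p T))) →
      ∃ t ∈ T, Ind (σ : MulAut (rSub p T)) t := by
    intro σ hσ
    rw [hSy, Subgroup.mem_subgroupOf] at hσ
    exact (mem_autInducedBy_iff T _ _).1 hσ
  -- (a) `p`-elements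
  have hpel : ∀ γ : E.autGroup (rSub p T), (∃ k : ℕ, orderOf γ = p ^ k) →
      (γ : MulAut (rSub p T)) ∈ lamAut p S T hRn := by
    rintro γ ⟨k, hk⟩
    have hz : IsPGroup p (Subgroup.zpowers γ) := by
      apply IsPGroup.of_card (n := k)
      rw [Nat.card_zpowers, hk]
    obtain ⟨R', hR'⟩ := hz.exists_le_sylow
    obtain ⟨a, ha⟩ := MulAction.exists_smul_eq (E.autGroup (rSub p T)) R' Sy
    have hγR' : γ ∈ (R' : Subgroup (E.autGroup (rSub p T))) := hR' (Subgroup.mem_zpowers γ)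
    have h3 : MulAut.conj a • γ ∈ MulAut.conj a • (R' : Subgroup (E.autGroup (rSub p T))) :=
      Subgroup.smul_mem_pointwise_smul _ _ _ hγR'
    rw [← Sylow.coe_subgroup_smul, ha, MulAut.smul_def, MulAut.conj_apply] at h3
    obtain ⟨t, ht, Ht⟩ := hindT _ h3
    obtain ⟨g, Hg⟩ := hindG a
    have e : (γ : MulAut (rSub p T)) = (a : MulAut (rSub p T))⁻¹ *
        ((a : MulAut (rSub p T)) * (γ : MulAut (rSub p T)) * (a : MulAut (rSub p T))⁻¹) *
        (a : MulAut (rSub p T)) := by group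
    rw [e]
    refine ⟨g⁻¹ * t * g⁻¹⁻¹, lam_of_qr (qr_conj hRn (qr_of_mem hTS hsc ht) g⁻¹), ?_⟩
    exact ((Hg.inv.mul Ht).mul Hg).congr (by group)
  -- (b) the normalizer of the Sylow subgroup
  have hnorm : ∀ ν : E.autGroup (rSub p T),
      ν ∈ Subgroup.normalizer ((Sy : Subgroup (E.autGroup (rSub p T))) : Set (E.autGroup (rSub p T))) →
      (ν : MulAut (rSub p T)) ∈ lamAut p S T hRn := by
    intro ν hν
    have hνM : Mor E (rSub p T) (autFun _ (ν : MulAut (rSub p T))) :=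
      (mem_autGroup_iff hRT _).1 ν.2
    have hRnorm : ∀ g : G, g ∈ Subgroup.normalizer ((rSub p T : Subgroup G) : Set G) := fun g => by
      rw [Subgroup.normalizer_eq_top]
      trivial
    -- extension to `T`
    obtain ⟨f', hf', hf'ν⟩ : ∃ f', Mor E T f' ∧
        ∀ x ∈ rSub p T, f' x = autFun _ (ν : MulAut (rSub p T)) x := by
      refine receptive_extend hRrec hνM (himgR _ hνM) hRT (fun t ht => ⟨ht, hRnorm t, ?_⟩)
      obtain ⟨σ, Hσ⟩ := exists_conjAut (hRnorm t)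
      have hσT : σ ∈ autInducedBy T (rSub p T) := (mem_autInducedBy_iff T _ σ).2 ⟨t, ht, Hσ⟩
      have hσA : σ ∈ E.autGroup (rSub p T) := autInducedBy_le_autGroup E hRT hσT
      have hσSy : (⟨σ, hσA⟩ : E.autGroup (rSub p T)) ∈
          (Sy : Subgroup (E.autGroup (rSub p T))) := by
        rw [hSy, Subgroup.mem_subgroupOf]
        exact hσT
      have h1 := (Subgroup.mem_normalizer_iff.1 hν ⟨σ, hσA⟩).1 hσSy
      obtain ⟨t', ht', Ht'⟩ := hindT _ h1
      refine ⟨t', ht', fun x hx => ?_⟩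
      have h2 := Ht' ((ν : MulAut (rSub p T)) ⟨x, hx⟩)
      have e1 : ((ν * ⟨σ, hσA⟩ * ν⁻¹ : E.autGroup (rSub p T)) : MulAut (rSub p T))
          ((ν : MulAut (rSub p T)) ⟨x, hx⟩) = (ν : MulAut (rSub p T)) (σ ⟨x, hx⟩) := by
        show (ν : MulAut (rSub p T)) (σ ((ν : MulAut (rSub p T))⁻¹
          ((ν : MulAut (rSub p T)) ⟨x, hx⟩))) = _
        rw [MulAut.inv_apply_self]
      rw [e1] at h2
      have e2 : (σ ⟨x, hx⟩ : rSub p T) = ⟨t * x * t⁻¹, hRn.conj_mem x hx t⟩ :=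
        Subtype.ext (Hσ ⟨x, hx⟩)
      rw [autFun_of_mem _ (hRn.conj_mem x hx t), autFun_of_mem _ hx, ← e2]
      exact h2
    have himgT : imgS T f' = T := imgS_eq_of_maps hf' (fun x hx => hf'.mem hx)
    have hαT := mkAut_mem hf' himgT
    obtain ⟨β, hβ, Hβ1, Hβ2⟩ := hext _ hαT
    have hDS : T ⊔ centralizerIn (S : Subgroup G) T ≤ S := sup_le hTS inf_le_left
    have hβM := (mem_autGroup_iff hDS β).1 hβ
    obtain ⟨-, -, ℓ, hℓ⟩ := mor_groupFusionSystem_iff.1 hβM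
    have hℓT : ∀ x ∈ T, ℓ * x * ℓ⁻¹ = f' x := by
      intro x hx
      rw [← hℓ x (Subgroup.mem_sup_left hx), autFun_of_mem β (Subgroup.mem_sup_left hx)]
      exact Hβ1 ⟨x, hx⟩
    have hℓC : ∀ c ∈ centralizerIn (S : Subgroup G) T, c⁻¹ * (ℓ * c * ℓ⁻¹) ∈ T := by
      intro c hc
      have h1 := Hβ2 ⟨c, Subgroup.mem_sup_right hc⟩ hc
      rw [← hℓ c (Subgroup.mem_sup_right hc), autFun_of_mem β (Subgroup.mem_sup_right hc)]
      exact h1.1
    have hℓTm : ∀ x ∈ T, ℓ * x * ℓ⁻¹ ∈ T := fun x hx => by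
      rw [hℓT x hx]
      exact hf'.mem hx
    have hST : ∀ s ∈ (S : Subgroup G), ∀ x ∈ T, s * x * s⁻¹ ∈ T := fun s hs x hx =>
      hsc s x hx (Subgroup.mul_mem _ (Subgroup.mul_mem _ hs (hTS hx)) (Subgroup.inv_mem _ hs))
    have hX : ∀ w ∈ T ⊔ centralizerIn (S : Subgroup G) T,
        w ∈ (S : Subgroup G) ∧ w⁻¹ * (ℓ * w * ℓ⁻¹) ∈ T := by
      let X : Subgroup G :=
        { carrier := {w | w ∈ (S : Subgroup G) ∧ w⁻¹ * (ℓ * w * ℓ⁻¹) ∈ T}
          mul_mem' := by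
            rintro x y ⟨hxS, hx⟩ ⟨hyS, hy⟩
            refine ⟨Subgroup.mul_mem _ hxS hyS, ?_⟩
            have e : (x * y)⁻¹ * (ℓ * (x * y) * ℓ⁻¹) =
                y⁻¹ * (x⁻¹ * (ℓ * x * ℓ⁻¹)) * y⁻¹⁻¹ * (y⁻¹ * (ℓ * y * ℓ⁻¹)) := by group
            rw [e]
            exact Subgroup.mul_mem _ (hST _ (Subgroup.inv_mem _ hyS) _ hx) hy
          one_mem' := ⟨Subgroup.one_mem _, by simp⟩
          inv_mem' := by
            rintro x ⟨hxS, hx⟩
            refine ⟨Subgroup.inv_mem _ hxS, ?_⟩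
            have e : x⁻¹⁻¹ * (ℓ * x⁻¹ * ℓ⁻¹) = x * (x⁻¹ * (ℓ * x * ℓ⁻¹))⁻¹ * x⁻¹ := by group
            rw [e]
            exact hST _ hxS _ (Subgroup.inv_mem _ hx) }
      have hle : T ⊔ centralizerIn (S : Subgroup G) T ≤ X :=
        sup_le (fun x hx => ⟨hTS hx, Subgroup.mul_mem _ (Subgroup.inv_mem _ hx) (hℓTm x hx)⟩)
          (fun c hc => ⟨hc.1, hℓC c hc⟩)
      exact fun w hw => hle hw
    have Hα : Ind (mkAut hf' himgT) ℓ := fun x => by
      rw [mkAut_apply]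
      exact (hℓT x x.2).symm
    have hlamℓ : Lam p (S : Subgroup G) T ℓ := by
      constructor
      · intro q hq
        have hqS := hQS hq
        have huQ : q⁻¹ * (ℓ * q * ℓ⁻¹) ∈ pCore p G :=
          Subgroup.mul_mem _ (Subgroup.inv_mem _ hq) (hQn.conj_mem q hq ℓ)
        refine ⟨huQ, ?_⟩
        have hqN : q ∈ Subgroup.normalizer ((T : Subgroup G) : Set G) :=
          mem_normalizer_of_forall_conj_mem (fun y hy => hST q hqS y hy) (fun y hy => by
            have := hST q⁻¹ (Subgroup.inv_mem _ hqS) y hy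
            rwa [inv_inv] at this)
        obtain ⟨κ, Hκ⟩ := exists_conjAut hqN
        have hκF : κ ∈ (groupFusionSystem (S : Subgroup G)).autGroup T :=
          autInducedBy_le_autGroup _ hTS ((mem_autInducedBy_iff _ _ κ).2 ⟨q, hqS, Hκ⟩)
        have h1 := han T le_rfl _ hαT κ⁻¹ (Subgroup.inv_mem _ hκF)
        have hθ : κ⁻¹ * mkAut hf' himgT * κ⁻¹⁻¹ * (mkAut hf' himgT)⁻¹ ∈ E.autGroup T :=
          Subgroup.mul_mem _ h1 (Subgroup.inv_mem _ hαT)
        have Hθ : Ind (κ⁻¹ * mkAut hf' himgT * κ⁻¹⁻¹ * (mkAut hf' himgT)⁻¹)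
            (q⁻¹ * (ℓ * q * ℓ⁻¹)) :=
          ((((Ind.inv Hκ).mul Hα).mul (Ind.inv (Ind.inv Hκ))).mul (Ind.inv Hα)).congr (by group)
        have hθS : κ⁻¹ * mkAut hf' himgT * κ⁻¹⁻¹ * (mkAut hf' himgT)⁻¹ ∈
            autInducedBy (S : Subgroup G) T :=
          (mem_autInducedBy_iff _ _ _).2 ⟨_, hQS huQ, Hθ⟩
        have hXp : IsPGroup p ((autInducedBy (S : Subgroup G) T).subgroupOf (E.autGroup T)) :=
          (autInducedBy_isPGroup hSp T).comap_subtype
        have hle : (SyT : Subgroup (E.autGroup T)) ≤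
            (autInducedBy (S : Subgroup G) T).subgroupOf (E.autGroup T) := by
          rw [hSyT]
          intro x hx
          exact autInducedBy_mono T hTS hx
        have heq := SyT.is_maximal' hXp hle
        have hθSy : (⟨_, hθ⟩ : E.autGroup T) ∈ (SyT : Subgroup (E.autGroup T)) := by
          rw [← heq]
          exact hθS
        rw [hSyT, Subgroup.mem_subgroupOf] at hθSy
        obtain ⟨t, ht, Ht⟩ := (mem_autInducedBy_iff T T _).1 hθSy
        have hc : t⁻¹ * (q⁻¹ * (ℓ * q * ℓ⁻¹)) ∈ centralizerIn (S : Subgroup G) T := by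
          rw [mem_centralizerIn_iff]
          refine ⟨Subgroup.mul_mem _ (Subgroup.inv_mem _ (hTS ht)) (hQS huQ), fun x hx => ?_⟩
          have h5 := (Hθ ⟨x, hx⟩).symm.trans (Ht ⟨x, hx⟩)
          calc x * (t⁻¹ * (q⁻¹ * (ℓ * q * ℓ⁻¹)))
              = t⁻¹ * (t * x * t⁻¹) * (q⁻¹ * (ℓ * q * ℓ⁻¹)) := by group
            _ = t⁻¹ * ((q⁻¹ * (ℓ * q * ℓ⁻¹)) * x * (q⁻¹ * (ℓ * q * ℓ⁻¹))⁻¹) *
                  (q⁻¹ * (ℓ * q * ℓ⁻¹)) := by rw [h5]
            _ = t⁻¹ * (q⁻¹ * (ℓ * q * ℓ⁻¹)) * x := by group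
        have e : q⁻¹ * (ℓ * q * ℓ⁻¹) = t * (t⁻¹ * (q⁻¹ * (ℓ * q * ℓ⁻¹))) := by group
        rw [e]
        exact Subgroup.mul_mem_sup ht hc
      · intro w hw
        exact ⟨(hX w hw.2).2, Subgroup.mul_mem _ (Subgroup.inv_mem _ hw.1) (hQn.conj_mem w hw.1 ℓ)⟩
    refine ⟨ℓ, hlamℓ, fun x => ?_⟩
    rw [← autFun_apply, ← hf'ν x x.2, hℓT x (hRT x.2)]
  intro α hα
  obtain ⟨n, hn, m, hm, hnm⟩ := exists_mul_normalizer_sylow Sy ⟨α, hα⟩
  have h1 : Subgroup.closure {γ : E.autGroup (rSub p T) | ∃ k : ℕ, orderOf γ = p ^ k} ≤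
      (lamAut p S T hRn).subgroupOf (E.autGroup (rSub p T)) := by
    rw [Subgroup.closure_le]
    intro γ hγ
    exact hpel γ hγ
  have h2 : (n : MulAut (rSub p T)) ∈ lamAut p S T hRn := h1 hn
  have h3 : (m : MulAut (rSub p T)) ∈ lamAut p S T hRn := hnorm m hm
  have h4 : α = (n : MulAut (rSub p T)) * (m : MulAut (rSub p T)) := by
    have := congrArg Subtype.val hnm
    exact this
  rw [h4]
  exact Subgroup.mul_mem _ h2 h3

end Cfsg.Agent.H90.NS
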