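import Cfsg.Agent.H90.NSDefs
import Cfsg.Agent.H90.SubsysCentric
import Cfsg.Agent.H87.Syl

set_option autoImplicit false

/-!
Assembly for the team project S5121, from the pieces of `NSDefs`.
-/

namespace Cfsg.Agent.H90.NS

open Cfsg Cfsg.FusionSystem Cfsg.Agent.H86 Cfsg.Agent.H87

universe u

theorem sylow_of_inf_le {G : Type u} [Group G] [Finite G] (p : ℕ) [Fact p.Prime] (S : Sylow p G)
    (T H : Subgroup G) (hTS : T ≤ S) (hTH : T ≤ H) (hH : H.Normal)
    (hle : (S : Subgroup G) ⊓ H ≤ T) :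
    ∃ R : Sylow p H, (R : Subgroup H) = T.subgroupOf H := by
  have hT : T = (S : Subgroup G) ⊓ H := le_antisymm (le_inf hTS hTH) hle
  have h1 : IsSylIn p (S : Subgroup G) ⊤ := Sylow.isSylIn_of_le S le_top
  have h2 := h1.inf_of_normal le_top (le_top : H ≤ ⊤) (by rw [Subgroup.normalizer_eq_top])
  rw [hT]
  exact h2

theorem main (a1 : A1Stmt.{u}) (a2 : A2Stmt.{u}) (a3 : A3Stmt.{u}) (a4 : A4Stmt.{u})
    (a5 : A5Stmt.{u}) (a6 : A6Stmt.{u}) (a7 : A7Stmt.{u}) (a8 : A8Stmt.{u}) (a9 : A9Stmt.{u})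
    (a10 : A10Stmt.{u}) (a11 : A11Stmt.{u}) (a12 : A12Stmt.{u}) (a13 : A13Stmt.{u})
    (a14 : A14Stmt.{u})
    {G : Type u} [Group G] [Finite G] (p : ℕ) [Fact p.Prime] (S : Sylow p G)
    (hG : Subgroup.centralizer ((Cfsg.pCore p G : Subgroup G) : Set G) ≤ Cfsg.pCore p G)
    (T : Subgroup G) (hTS : T ≤ S) (E : Cfsg.FusionSystem T)
    (hE : E.IsNormalIn (Cfsg.groupFusionSystem (S : Subgroup G)) p) :
    ∃ H : Subgroup G, (∃ hTH : T ≤ H, H.Normal ∧
      (∃ R : Sylow p H, (R : Subgroup H) = T.subgroupOf H) ∧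
      ∀ P : Subgroup G, E.Hom P = (Cfsg.fusionSystemOfSubgroup H T hTH).Hom P) ∧
      ∀ H' : Subgroup G, (∃ hTH' : T ≤ H', H'.Normal ∧
        (∃ R : Sylow p H', (R : Subgroup H') = T.subgroupOf H') ∧
        ∀ P : Subgroup G, E.Hom P = (Cfsg.fusionSystemOfSubgroup H' T hTH').Hom P) → H' = H := by
  have hyp : Hyp p S T E := ⟨hG, hTS, hE⟩
  obtain ⟨hsc, hRn⟩ := a1 p S T E hyp
  have hch : Chain p T := a2 p T hG hRn
  have hrnc : RNC p T E := a3 p S T E hyp hsc hRn hch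
  have han : AutNorm p S T E := a4 p S T E hyp
  have hkey : Key p S T E := a5 p S T E hyp hsc hRn hrnc han
  have hb : BOK p T E := a6 p S T E hyp hsc hRn han
  have hsb : SB p S T E := a7 p S T E hyp hsc hRn hch hrnc hb
  have hHn : (hSub p T E).Normal := a8 p S T E hyp hsc hb
  have hSH : (S : Subgroup G) ⊓ hSub p T E ≤ T := a9 p S T E hyp hsc hRn hb hsb
  have hle : HLe p T E := a10 p S T E hyp hsc hRn hch hrnc hkey hb hHn hSH
  have hlam : LamReal p S T E := a11 p S T E hyp hsc hRn hrnc han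
  have hreal : HReal p T E := a12 p S T E hyp hsc hRn hrnc hlam
  have hge : ELe p T E := a13 p S T E hyp hRn hrnc hHn hSH hle hreal
  have huniq : Uniq p T E := a14 p S T E hyp hsc hRn hch hb
  refine ⟨hSub p T E, ⟨le_sup_right, hHn, sylow_of_inf_le p S T _ hTS le_sup_right hHn hSH,
    fun P => ?_⟩, huniq⟩
  ext φ
  constructor
  · intro h
    exact Cfsg.Agent.H90.mem_hom_of_mor (hge P _ (mor_extFun h))
  · intro h
    exact Cfsg.Agent.H90.mem_hom_of_mor (hle P _ (mor_extFun h))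

end Cfsg.Agent.H90.NS
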