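import Cfsg.Agent.H90.SgDefs
import Cfsg.Agent.S0617
import Cfsg.Agent.H14.TFail
import Cfsg.Agent.H52.SnAsm

set_option autoImplicit false
set_option linter.unusedVariables false

/-! SG-GEN (helper90, EXIST-GEN for S2949): Glauberman's structure theorem S0617 in the holomorph
of `V` and BOX: `J(X)` is generated by elements normalizing `J C_X(V)` and by the preimages of
the subgroups of order 3 of the `S₃`-factors not centralized by `J`. -/

open Cfsg
open scoped commutatorElement Pointwise

namespace Cfsg.Agent.H90.SgG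

open Cfsg.Agent.H14.Holo Cfsg.Agent.H90.Sg

universe u

theorem gen (hBox : StBox.{u}) : StGen.{u} := by
  intro X _ _ V _ hV hsep hO J hJ hJ2
  have : Fact (Nat.Prime 2) := ⟨Nat.prime_two⟩
  have hJn := thompsonSubgroup_normal 2 X
  have hV' := Vh_elemAb V hV
  have hVn := Vh_normal V
  obtain ⟨H, hHeq⟩ : ∃ H : Subgroup (Hol V), H = (thompsonSubgroup 2 X).map (psi V) :=
    ⟨_, rfl⟩
  have hHV : H ≤ Subgroup.normalizer ((Vh V : Subgroup (Hol V)) : Set (Hol V)) := by
    rw [Subgroup.normalizer_eq_top]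
    exact le_top
  have hHR : H ≤ (psi V).range := by
    rw [hHeq]
    rintro _ ⟨j, -, rfl⟩
    exact ⟨j, rfl⟩
  have hf : H ⊓ Subgroup.centralizer ((Vh V : Subgroup (Hol V)) : Set (Hol V)) = ⊥ := by
    rw [eq_bot_iff, ← range_faithful V]
    exact inf_le_inf_right _ hHR
  have hnorm : (psi V).range ≤ Subgroup.normalizer ((H : Subgroup (Hol V)) : Set (Hol V)) := by
    rw [hHeq]
    rintro _ ⟨g, rfl⟩
    rw [Subgroup.mem_normalizer_iff]
    intro h
    constructor
    · rintro ⟨j, hj, rfl⟩
      refine ⟨g * j * g⁻¹, hJn.conj_mem j hj g, ?_⟩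
      simp
    · rintro ⟨j, hj, hjh⟩
      refine ⟨g⁻¹ * j * g, ?_, ?_⟩
      · have := hJn.conj_mem j hj g⁻¹
        simpa using this
      · rw [map_mul, map_mul, hjh, map_inv]
        group
  have hS1 := hS1_of_normal (p := 2) (psi V).range H hHR
    hnorm (range_isPSolvable V hsep) (range_pCore_eq_bot V hO)
  have hS3 : H = ⨆ A : {A : Subgroup (Hol V) // A ≤ H ∧ IsBestOffenderOn 2 (Vh V) A},
      (A : Subgroup (Hol V)) := by
    apply le_antisymm
    · conv_lhs => rw [hHeq]; unfold Cfsg.thompsonSubgroup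
      rw [Subgroup.map_le_iff_le_comap]
      apply sSup_le
      intro A hA
      rw [← Subgroup.map_le_iff_le_comap]
      exact le_iSup (fun A : {A : Subgroup (Hol V) //
        A ≤ H ∧ IsBestOffenderOn 2 (Vh V) A} => (A : Subgroup (Hol V)))
        ⟨A.map (psi V), by rw [hHeq]; exact Subgroup.map_mono (le_sSup hA),
          bestOffender_map V hV hA⟩
    · exact iSup_le fun A => A.2.1
  have hC : ∀ g : X, g ∈ Subgroup.centralizer (V : Set X) ↔ psi V g = 1 := by
    intro g
    rw [← psi_ker, MonoidHom.mem_ker]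
  -- the right-hand side
  obtain ⟨R, hReq⟩ : ∃ R : Subgroup X, R =
      Subgroup.normalizer ((J ⊔ Subgroup.centralizer (V : Set X) : Subgroup X) : Set X) ⊔
      ⨆ D : {D : Subgroup X // Subgroup.centralizer (V : Set X) ≤ D ∧
        (Subgroup.centralizer (V : Set X)).relIndex D = 3 ∧
        thompsonSubgroup 2 X ≤ Subgroup.normalizer (D : Set X) ∧
        ¬ ⁅D, J⁆ ≤ Subgroup.centralizer (V : Set X) ∧
        ∃ W : Subgroup X, Nat.card ↥W = 4 ∧ ∀ k ∈ D, ∀ v ∈ V, k * v * k⁻¹ * v⁻¹ ∈ W},
      (D : Subgroup X) := ⟨_, rfl⟩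
  rw [← hReq]
  have hNR : Subgroup.normalizer
      ((J ⊔ Subgroup.centralizer (V : Set X) : Subgroup X) : Set X) ≤ R := by
    rw [hReq]
    exact le_sup_left
  have hCR : Subgroup.centralizer (V : Set X) ≤ R :=
    (le_sup_right.trans Subgroup.le_normalizer).trans hNR
  -- elements whose image centralizes the image of `J` normalize `J C`
  have hcen : ∀ h : X, psi V h ∈ Subgroup.centralizer
      ((J.map (psi V) : Subgroup (Hol V)) : Set (Hol V)) → h ∈ R := by
    intro h hh
    apply hNR
    have h1 : ⁅J, (Subgroup.centralizer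
        ((J.map (psi V) : Subgroup (Hol V)) : Set (Hol V))).comap (psi V)⁆ ≤
        Subgroup.centralizer (V : Set X) := by
      rw [Subgroup.commutator_le]
      intro j hj s hs
      rw [hC, commutatorElement_def, map_mul, map_mul, map_mul, map_inv, map_inv]
      have hs' : psi V s ∈ Subgroup.centralizer
          ((J.map (psi V) : Subgroup (Hol V)) : Set (Hol V)) := hs
      rw [Subgroup.mem_centralizer_iff] at hs'
      have h2 := hs' (psi V j) (Subgroup.mem_map_of_mem _ hj)
      rw [h2]
      group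
    exact Cfsg.Agent.H52.Sn.le_normalizer_sup J _ (Subgroup.centralizer (V : Set X)) h1 hh
  by_cases hH1 : H = ⊥
  · intro g hg
    apply hCR
    rw [hC]
    have h1 : psi V g ∈ H := by
      rw [hHeq]
      exact Subgroup.mem_map_of_mem _ hg
    rw [hH1, Subgroup.mem_bot] at h1
    exact h1
  · obtain ⟨-, hE, hind, hsup, -, -⟩ :=
      Cfsg.Agent.S0617.result _ _ hV' hHV hf hS1 hS3 hH1
    have hJ'H : J.map (psi V) ≤ H := by
      rw [hHeq]
      exact Subgroup.map_mono hJ
    have hJ'2 : IsPGroup 2 ↥(J.map (psi V)) := hJ2.map (psi V)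
    have key : ∀ i : {E : Subgroup (Hol V) // ∃ A : Subgroup (Hol V),
        A ≤ H ∧ IsBestOffenderOn 2 (Vh V) A ∧ ⁅Vh V, A⁆ ≠ ⊥ ∧
        (∀ B : Subgroup (Hol V), B ≤ A → IsBestOffenderOn 2 (Vh V) B → ⁅Vh V, B⁆ ≠ ⊥ → B = A) ∧
        E = ⁅((pPrimeCore 2 ↥H).map H.subtype), A⁆ ⊔ A},
        (i : Subgroup (Hol V)) ≤ R.map (psi V) := by
      intro i
      obtain ⟨hHE, -, hcard⟩ := hE i
      have hEH : (i : Subgroup (Hol V)) ≤ H := (le_iSup (fun E : {E : Subgroup (Hol V) //
          ∃ A : Subgroup (Hol V),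
          A ≤ H ∧ IsBestOffenderOn 2 (Vh V) A ∧ ⁅Vh V, A⁆ ≠ ⊥ ∧
          (∀ B : Subgroup (Hol V), B ≤ A → IsBestOffenderOn 2 (Vh V) B → ⁅Vh V, B⁆ ≠ ⊥ →
            B = A) ∧
          E = ⁅((pPrimeCore 2 ↥H).map H.subtype), A⁆ ⊔ A} => (E : Subgroup (Hol V))) i).trans
        hsup.le
      -- elements of `E i` centralizing the image of `J`
      have hEc : (i : Subgroup (Hol V)) ⊓ Subgroup.centralizer
          ((J.map (psi V) : Subgroup (Hol V)) : Set (Hol V)) ≤ R.map (psi V) := by
        rintro e ⟨he, hec⟩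
        obtain ⟨h, -, rfl⟩ : e ∈ (thompsonSubgroup 2 X).map (psi V) := by
          rw [← hHeq]
          exact hEH he
        exact Subgroup.mem_map_of_mem _ (hcen h hec)
      rcases hBox (fun E : {E : Subgroup (Hol V) // ∃ A : Subgroup (Hol V),
          A ≤ H ∧ IsBestOffenderOn 2 (Vh V) A ∧ ⁅Vh V, A⁆ ≠ ⊥ ∧
          (∀ B : Subgroup (Hol V), B ≤ A → IsBestOffenderOn 2 (Vh V) B → ⁅Vh V, B⁆ ≠ ⊥ →
            B = A) ∧
          E = ⁅((pPrimeCore 2 ↥H).map H.subtype), A⁆ ⊔ A} => (E : Subgroup (Hol V)))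
        H (J.map (psi V)) (fun i => (hE i).1) (fun i => (hE i).2.1) hind hsup hJ'H hJ'2 i
        with h | ⟨D₀, hD₀E, hD₀3, hHD₀, hD₀J, hED₀⟩
      · exact (le_inf le_rfl h).trans hEc
      · refine hED₀.trans (sup_le ?_ hEc)
        have hD₀R : D₀ ≤ (psi V).range := (hD₀E.trans hEH).trans hHR
        have hmap : (D₀.comap (psi V)).map (psi V) = D₀ := Subgroup.map_comap_eq_self hD₀R
        rw [← hmap]
        apply Subgroup.map_mono
        rw [hReq]
        refine le_sup_of_le_right (le_iSup (fun D : {D : Subgroup X //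
          Subgroup.centralizer (V : Set X) ≤ D ∧
          (Subgroup.centralizer (V : Set X)).relIndex D = 3 ∧
          thompsonSubgroup 2 X ≤ Subgroup.normalizer (D : Set X) ∧
          ¬ ⁅D, J⁆ ≤ Subgroup.centralizer (V : Set X) ∧
          ∃ W : Subgroup X, Nat.card ↥W = 4 ∧ ∀ k ∈ D, ∀ v ∈ V, k * v * k⁻¹ * v⁻¹ ∈ W} =>
          (D : Subgroup X)) ⟨D₀.comap (psi V), ?_, ?_, ?_, ?_, ?_⟩)
        · -- `C ≤ D'`
          intro c hc
          rw [Subgroup.mem_comap, (hC c).1 hc]
          exact D₀.one_mem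
        · -- index 3
          rw [← psi_ker, ← MonoidHom.comap_bot, Subgroup.relIndex_comap, hmap,
            Subgroup.relIndex_bot_left, hD₀3]
        · -- normalized by `J(X)`
          intro g hg
          have hgH : psi V g ∈ H := by
            rw [hHeq]
            exact Subgroup.mem_map_of_mem _ hg
          have hgN := hHD₀ hgH
          rw [Subgroup.mem_normalizer_iff] at hgN ⊢
          intro x
          rw [Subgroup.mem_comap, Subgroup.mem_comap, map_mul, map_mul, map_inv]
          exact hgN (psi V x)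
        · -- not centralized by `J` modulo `C`
          intro hcon
          apply hD₀J
          intro d hd
          obtain ⟨d', rfl⟩ := hD₀R hd
          rw [Subgroup.mem_centralizer_iff]
          rintro _ ⟨j, hj, rfl⟩
          have h1 : ⁅d', j⁆ ∈ Subgroup.centralizer (V : Set X) :=
            hcon (Subgroup.commutator_mem_commutator (Subgroup.mem_comap.2 hd) hj)
          rw [hC, commutatorElement_def, map_mul, map_mul, map_mul, map_inv, map_inv] at h1
          have h2 : psi V d' * psi V j = (psi V d' * psi V j * (psi V d')⁻¹ * (psi V j)⁻¹) *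
              (psi V j * psi V d') := by group
          rw [h2, h1, one_mul]
        · -- the subgroup of order 4
          have hle : ⁅Vh V, (i : Subgroup (Hol V))⁆ ≤
              (SemidirectProduct.inl : ↥V →* Hol V).range :=
            Subgroup.commutator_le_left _ _
          refine ⟨((⁅Vh V, (i : Subgroup (Hol V))⁆).comap
            (SemidirectProduct.inl : ↥V →* Hol V)).map V.subtype, ?_, ?_⟩
          · rw [Subgroup.card_map_of_injective V.subtype_injective,
              ← Subgroup.card_map_of_injective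
                (SemidirectProduct.inl_injective (φ := MonoidHom.id (MulAut ↥V))),
              Subgroup.map_comap_eq_self hle, hcard]
            norm_num
          · intro k hk v hv
            have hkE : psi V k ∈ (i : Subgroup (Hol V)) := hD₀E (Subgroup.mem_comap.1 hk)
            refine ⟨MulAut.conjNormal k ⟨v, hv⟩ * (⟨v, hv⟩ : ↥V)⁻¹, ?_, ?_⟩
            · rw [SetLike.mem_coe, Subgroup.mem_comap, map_mul, map_inv, ← psi_conj]
              have h1 : ⁅(SemidirectProduct.inl (⟨v, hv⟩ : ↥V) : Hol V), psi V k⁆ ∈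
                  ⁅Vh V, (i : Subgroup (Hol V))⁆ :=
                Subgroup.commutator_mem_commutator ⟨_, rfl⟩ hkE
              have h2 := Subgroup.inv_mem _ h1
              rw [commutatorElement_inv, commutatorElement_def] at h2
              exact h2
            · simp [MulAut.conjNormal_apply]
    intro g hg
    have hgH : psi V g ∈ H := by
      rw [hHeq]
      exact Subgroup.mem_map_of_mem _ hg
    rw [← hsup] at hgH
    obtain ⟨r, hr, hrg⟩ := (iSup_le key) hgH
    have h1 : r⁻¹ * g ∈ Subgroup.centralizer (V : Set X) := by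
      rw [hC, map_mul, map_inv, hrg]
      group
    have h2 := R.mul_mem hr (hCR h1)
    rwa [mul_inv_cancel_left] at h2

example (hBox : Cfsg.Agent.H90.Sg.StBox.{u}) : Cfsg.Agent.H90.Sg.StGen.{u} := gen hBox

end Cfsg.Agent.H90.SgG

#print axioms Cfsg.Agent.H90.SgG.gen
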