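import Cfsg.Agent.H90.SgFinal0
import Cfsg.Agent.H90.SgGen
import Cfsg.Agent.H15.SgBox
import Cfsg.Agent.H3.SgFr
import Cfsg.Agent.H82.SxW

/-!
# SG route: hypothesis-free EXIST-GEN

`Cfsg.Agent.H90.Sg.existGenClosed : StExistGen`, assembled from the landed pieces
SG-BOX (helper15), SG-GEN (helper90), SG-FR (helper3) and SX-W (helper82).
-/

universe u

namespace Cfsg.Agent.H90.Sg

theorem existGenClosed : StExistGen.{u} :=
  existGen_of Cfsg.Agent.H15.Sg.box Cfsg.Agent.H90.SgG.gen Cfsg.Agent.H3.Sg.fr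
    Cfsg.Agent.H82.Sx.w

end Cfsg.Agent.H90.Sg

#print axioms Cfsg.Agent.H90.Sg.existGenClosed
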