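import Mathlib
import Cfsg.Agent.H88.Solvable
import Cfsg.Agent.H87.Invariant

/-!
Solvable fusion systems (in the sense of chains of strongly closed subgroups with abelian
quotients) and normal subsystems: chains pass to invariant subsystems and to factor systems, and
lift from an invariant subsystem and the factor system (S5159).
-/

set_option autoImplicit false

namespace Cfsg.Agent.H90

open Cfsg Cfsg.FusionSystem Cfsg.Agent.H86 Cfsg.Agent.H88 Cfsg.Agent.H87
open scoped commutatorElement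

universe u v

variable {Ω : Type u} [Group Ω] {S T : Subgroup Ω}

/-- The smallest subgroup strongly closed in `E` that contains `[X, X]`. -/
def scDer (E : FusionSystem T) (X : Subgroup Ω) : Subgroup Ω :=
  sInf {Q : Subgroup Ω | E.StronglyClosed Q ∧ ⁅X, X⁆ ≤ Q}

lemma se_stronglyClosed_self (E : FusionSystem T) : E.StronglyClosed T :=
  stronglyClosed_iff.2 ⟨le_rfl, fun _ _ _ hf _ hx => hf.mem hx⟩

lemma se_comm_le {X Y : Subgroup Ω} (hXY : X ≤ Y) : ⁅X, X⁆ ≤ Y := by
  rw [Subgroup.commutator_le]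
  intro a ha b hb
  rw [commutatorElement_def]
  exact Y.mul_mem (Y.mul_mem (Y.mul_mem (hXY ha) (hXY hb)) (Y.inv_mem (hXY ha))) (Y.inv_mem (hXY hb))

lemma scDer_le_of {E : FusionSystem T} {X Q : Subgroup Ω} (hQ : E.StronglyClosed Q)
    (h : ⁅X, X⁆ ≤ Q) : scDer E X ≤ Q :=
  sInf_le ⟨hQ, h⟩

lemma comm_le_scDer (E : FusionSystem T) (X : Subgroup Ω) : ⁅X, X⁆ ≤ scDer E X :=
  le_sInf (fun _ hQ => hQ.2)

lemma scDer_stronglyClosed {E : FusionSystem T} {X : Subgroup Ω} (hX : X ≤ T) :
    E.StronglyClosed (scDer E X) := by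
  rw [stronglyClosed_iff]
  refine ⟨scDer_le_of (se_stronglyClosed_self E) (se_comm_le hX), fun R f hR hf x hx => ?_⟩
  unfold scDer
  rw [Subgroup.mem_sInf]
  intro Q hQ
  exact (stronglyClosed_iff.1 hQ.1).2 R f (hR.trans (sInf_le hQ)) hf x hx

/-- `X` is invariant under the automorphisms of `T` in `F`. -/
def AInv (F : FusionSystem S) (T X : Subgroup Ω) : Prop :=
  ∀ a : Ω → Ω, Mor F T a → imgS T a = T → ∀ x ∈ X, a x ∈ X

/-- A subgroup strongly closed in an invariant subsystem `E` and invariant under `Aut_F(T)` is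
strongly closed in `F`. -/
lemma se_sc_of_inv {E : FusionSystem T} {F : FusionSystem S} (hTS : T ≤ S) (hFr : Frat E F)
    {X : Subgroup Ω} (hX : E.StronglyClosed X) (hinv : AInv F T X) : F.StronglyClosed X := by
  rw [stronglyClosed_iff]
  refine ⟨hX.1.trans hTS, fun R f hR hf x hx => ?_⟩
  obtain ⟨a, f₀, ha, haT, hf₀, H⟩ := hFr R f (hR.trans hX.1) hf
  rw [H x hx]
  exact hinv a ha haT _ ((stronglyClosed_iff.1 hX).2 R f₀ hR hf₀ x hx)

/-- The image under an automorphism of `T` in `F` of a subgroup strongly closed in the invariant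
subsystem `E` is strongly closed in `E`. -/
lemma se_sc_transport {E : FusionSystem T} {F : FusionSystem S} (hAI : AutInv E F)
    {X : Subgroup Ω} (hX : E.StronglyClosed X) {b : Ω → Ω} (hb : Mor F T b) (hbT : imgS T b = T) :
    E.StronglyClosed (imgS X b) := by
  have hbX : Mor F X b := hb.restrict hX.1
  have ha : Mor F T (invOn T b) := by
    have h := hb.inv
    rw [hbT] at h
    exact h
  have haT : imgS T (invOn T b) = T := by
    have h := hb.imgS_inv
    rw [hbT] at h
    exact h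
  have hXbT : imgS X b ≤ T := by
    have h := hb.imgS_mono hX.1
    rw [hbT] at h
    exact h
  rw [stronglyClosed_iff]
  refine ⟨hXbT, fun R f hR hf y hy => ?_⟩
  have hRT : R ≤ T := hR.trans hXbT
  obtain ⟨χ, hχ, Hχ⟩ := hAI R f (invOn T b) hRT hf ha haT
  have haR : Mor F R (invOn T b) := ha.restrict hRT
  have hle : imgS R (invOn T b) ≤ X := by
    intro z hz
    obtain ⟨y', hy', rfl⟩ := haR.mem_imgS.1 hz
    obtain ⟨x, hx, rfl⟩ := hbX.mem_imgS.1 (hR hy')
    rw [invOn_apply hb.injOn (hX.1 hx)]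
    exact hx
  have h1 : χ (invOn T b y) ∈ X :=
    (stronglyClosed_iff.1 hX).2 _ χ hle hχ _ (haR.mem_imgS_of_mem hy)
  rw [Hχ y hy] at h1
  have hfyT : f y ∈ T := hf.mem hy
  have h2 : b (invOn T b (f y)) = f y := hb.apply_invOn (by rw [hbT]; exact hfyT)
  rw [← h2]
  exact hbX.mem_imgS_of_mem h1

/-- The strongly closed derived subgroup of an `Aut_F(T)`-invariant subgroup is
`Aut_F(T)`-invariant. -/
lemma se_scDer_inv {E : FusionSystem T} {F : FusionSystem S} (hAI : AutInv E F)
    {X : Subgroup Ω} (hXT : X ≤ T) (hinv : AInv F T X) : AInv F T (scDer E X) := by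
  intro a ha haT y hy
  have hb : Mor F T (invOn T a) := by
    have h := ha.inv
    rw [haT] at h
    exact h
  have hbT : imgS T (invOn T a) = T := by
    have h := ha.imgS_inv
    rw [haT] at h
    exact h
  have hY := scDer_stronglyClosed (E := E) hXT
  have hQ := se_sc_transport hAI hY hb hbT
  have hbY : Mor F (scDer E X) (invOn T a) := hb.restrict hY.1
  have hcomm : ⁅X, X⁆ ≤ imgS (scDer E X) (invOn T a) := by
    rw [Subgroup.commutator_le]
    intro x hx z hz
    have hxT := hXT hx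
    have hzT := hXT hz
    have hcT : ⁅x, z⁆ ∈ T := se_comm_le hXT (Subgroup.commutator_mem_commutator hx hz)
    have e1 : a ⁅x, z⁆ = ⁅a x, a z⁆ := by
      rw [commutatorElement_def, commutatorElement_def,
        ha.map_mul (T.mul_mem (T.mul_mem hxT hzT) (T.inv_mem hxT)) (T.inv_mem hzT),
        ha.map_mul (T.mul_mem hxT hzT) (T.inv_mem hxT), ha.map_mul hxT hzT, ha.map_inv hxT,
        ha.map_inv hzT]
    have e2 : a ⁅x, z⁆ ∈ scDer E X := by
      rw [e1]
      exact comm_le_scDer E X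
        (Subgroup.commutator_mem_commutator (hinv a ha haT x hx) (hinv a ha haT z hz))
    have e3 : invOn T a (a ⁅x, z⁆) = ⁅x, z⁆ := invOn_apply ha.injOn hcT
    rw [← e3]
    exact hbY.mem_imgS_of_mem e2
  have hle : scDer E X ≤ imgS (scDer E X) (invOn T a) := scDer_le_of hQ hcomm
  obtain ⟨y', hy', hyy'⟩ := hbY.mem_imgS.1 (hle hy)
  rw [← hyy', ha.apply_invOn (by rw [haT]; exact hY.1 hy')]
  exact hy'

/-- A chain for the invariant subsystem `E` over `T` and a chain of `F` from `T` to `S` give a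
chain of `F` from the trivial subgroup. -/
theorem se_hasChain_bot {E : FusionSystem T} {F : FusionSystem S} (hTS : T ≤ S)
    (hAI : AutInv E F) (hFr : Frat E F) (hE : HasChain E ⊥) (hFT : HasChain F T) :
    HasChain F ⊥ := by
  obtain ⟨n, Q, hQ0, hQlast, hQmono, hQcl, hQc⟩ := hE
  have key : ∀ i : Fin (n + 1), ∃ X : Subgroup Ω, X ≤ Q i ∧ E.StronglyClosed X ∧ AInv F T X ∧
      HasChain F X := by
    intro i
    induction i using Fin.reverseInduction with
    | last =>
      refine ⟨T, by rw [hQlast], se_stronglyClosed_self E, fun a ha haT x hx => ?_, hFT⟩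
      rw [← haT]
      exact ha.mem_imgS_of_mem hx
    | cast i ih =>
      obtain ⟨X, hXQ, hXsc, hXinv, hXch⟩ := ih
      have hX'sc := scDer_stronglyClosed (E := E) hXsc.1
      have hX'inv := se_scDer_inv hAI hXsc.1 hXinv
      refine ⟨scDer E X, ?_, hX'sc, hX'inv, ?_⟩
      · exact scDer_le_of (hQcl _) ((Subgroup.commutator_mono hXQ hXQ).trans (hQc i))
      · exact hasChain_cons (se_sc_of_inv hTS hFr hX'sc hX'inv)
          (scDer_le_of hXsc (se_comm_le le_rfl)) (comm_le_scDer E X) hXch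
  obtain ⟨X, hX0, -, -, hXch⟩ := key 0
  rw [hQ0, le_bot_iff] at hX0
  rw [← hX0]
  exact hXch

/-- A chain of `F` restricts to a chain of any subsystem. -/
theorem se_hasChain_sub {E : FusionSystem T} {F : FusionSystem S} (hTS : T ≤ S)
    (hsub : E.IsSubsystemOf F) (h : HasChain F ⊥) : HasChain E ⊥ := by
  obtain ⟨n, Q, h0, hlast, hmono, hcl, hc⟩ := h
  refine ⟨n, fun i => Q i ⊓ T, ?_, ?_, ?_, ?_, ?_⟩
  · show Q 0 ⊓ T = ⊥
    rw [h0, bot_inf_eq]
  · show Q (Fin.last n) ⊓ T = T
    rw [hlast]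
    exact inf_eq_right.2 hTS
  · intro i j hij
    exact inf_le_inf_right T (hmono hij)
  · intro i
    rw [stronglyClosed_iff]
    refine ⟨inf_le_right, fun R f hR hf x hx => ⟨?_, hf.mem hx⟩⟩
    exact (stronglyClosed_iff.1 (hcl i)).2 R f (hR.trans inf_le_left) (mor_of_subsystem hsub hf) x hx
  · intro i
    show ⁅Q i.succ ⊓ T, Q i.succ ⊓ T⁆ ≤ Q i.castSucc ⊓ T
    exact le_inf ((Subgroup.commutator_mono inf_le_left inf_le_left).trans (hc i))
      (se_comm_le inf_le_right)

section Factor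

variable {Ω' : Type v} [Group Ω'] {F : FusionSystem S} {S' : Subgroup Ω'} {θ : S →* Ω'}
  {D : FusionSystem S'}

lemma se_tot_comm (θ : S →* Ω') {x y : Ω} (hx : x ∈ S) (hy : y ∈ S) :
    tot θ ⁅x, y⁆ = ⁅tot θ x, tot θ y⁆ := by
  rw [commutatorElement_def, commutatorElement_def,
    tot_mul θ (S.mul_mem (S.mul_mem hx hy) (S.inv_mem hx)) (S.inv_mem hy),
    tot_mul θ (S.mul_mem hx hy) (S.inv_mem hx), tot_mul θ hx hy, tot_inv θ hx, tot_inv θ hy]

/-- A chain of `F` from `T` maps to a chain of the factor system modulo `T`. -/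
theorem se_hasChain_image (hD : F.IsFactorSystem T θ D) (h : HasChain F T) : HasChain D ⊥ := by
  obtain ⟨n, Q, h0, hlast, hmono, hcl, hc⟩ := h
  have hTS : T ≤ S := hD.1
  refine ⟨n, fun i => imageAlong θ (Q i), ?_, ?_, ?_, ?_, ?_⟩
  · show imageAlong θ (Q 0) = ⊥
    rw [h0, eq_bot_iff]
    intro y hy
    obtain ⟨x, hx, rfl⟩ := (mem_imageAlong_iff hTS).1 hy
    rw [Subgroup.mem_bot]
    exact (tot_eq_one_iff hD (hTS hx)).2 hx
  · show imageAlong θ (Q (Fin.last n)) = S'
    rw [hlast]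
    apply le_antisymm (imageAlong_le hD S)
    intro y hy
    obtain ⟨x, hx, rfl⟩ := exists_tot_eq hD hy
    exact tot_mem_imageAlong le_rfl hx
  · intro i j hij
    exact imageAlong_mono' θ (hmono hij)
  · intro i
    refine factor_stronglyClosed_image hD (hcl i) ?_
    rw [← h0]
    exact hmono (Fin.zero_le i)
  · intro i
    show ⁅imageAlong θ (Q i.succ), imageAlong θ (Q i.succ)⁆ ≤ imageAlong θ (Q i.castSucc)
    rw [Subgroup.commutator_le]
    intro y₁ hy₁ y₂ hy₂
    have hQS := (hcl i.succ).1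
    obtain ⟨x₁, hx₁, rfl⟩ := (mem_imageAlong_iff hQS).1 hy₁
    obtain ⟨x₂, hx₂, rfl⟩ := (mem_imageAlong_iff hQS).1 hy₂
    rw [← se_tot_comm θ (hQS hx₁) (hQS hx₂)]
    exact tot_mem_imageAlong (hcl i.castSucc).1
      (hc i (Subgroup.commutator_mem_commutator hx₁ hx₂))

/-- A chain of the factor system modulo `T` lifts to a chain of `F` from `T`. -/
theorem se_hasChain_preimage [Finite S] {p : ℕ} [Fact p.Prime] (hS : IsPGroup p S)
    (hF : F.IsSaturated p) (hT : F.StronglyClosed T) (hD : F.IsFactorSystem T θ D)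
    (h : HasChain D ⊥) : HasChain F T := by
  obtain ⟨n, Q, h0, hlast, hmono, hcl, hc⟩ := h
  refine ⟨n, fun i => preimageAlong θ (Q i), ?_, ?_, ?_, ?_, ?_⟩
  · show preimageAlong θ (Q 0) = T
    rw [h0]
    ext x
    rw [mem_preimageAlong_iff, Subgroup.mem_bot]
    constructor
    · rintro ⟨hx, h1⟩
      exact (tot_eq_one_iff hD hx).1 h1
    · intro hx
      exact ⟨hT.1 hx, (tot_eq_one_iff hD (hT.1 hx)).2 hx⟩
  · show preimageAlong θ (Q (Fin.last n)) = S
    rw [hlast]
    ext x
    rw [mem_preimageAlong_iff]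
    exact ⟨fun h => h.1, fun h => ⟨h, tot_mem hD x⟩⟩
  · intro i j hij x hx
    rw [mem_preimageAlong_iff] at hx ⊢
    exact ⟨hx.1, hmono hij hx.2⟩
  · intro i
    exact factor_stronglyClosed_preimage hS hF hT hD (hcl i)
  · intro i
    show ⁅preimageAlong θ (Q i.succ), preimageAlong θ (Q i.succ)⁆ ≤ preimageAlong θ (Q i.castSucc)
    rw [Subgroup.commutator_le]
    intro x₁ hx₁ x₂ hx₂
    obtain ⟨h1S, h1⟩ := mem_preimageAlong_iff.1 hx₁
    obtain ⟨h2S, h2⟩ := mem_preimageAlong_iff.1 hx₂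
    rw [mem_preimageAlong_iff]
    refine ⟨se_comm_le (le_refl S) (Subgroup.commutator_mem_commutator h1S h2S), ?_⟩
    rw [se_tot_comm θ h1S h2S]
    exact hc i (Subgroup.commutator_mem_commutator h1 h2)

end Factor

end Cfsg.Agent.H90
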