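import Cfsg.Agent.H90.TRDefs
import Cfsg.Agent.H87.SysIso
import Cfsg.Agent.H87.QSTransport
import Cfsg.Agent.H87.FusIso

set_option autoImplicit false

/-!
Piece I1 of S5156: the `p'`-residual subsystem of a saturated fusion system `F` is invariant under
`Aut_F(S)` (its conjugates are saturated of index prime to `p`, hence contain it).
-/

namespace Cfsg.Agent.H90.TR

open Cfsg Cfsg.FusionSystem Cfsg.Agent.H86 Cfsg.Agent.H87

universe u

theorem i1 : I1Stmt.{u} := by
  intro Ω _ S _ p _ hS F hF E hE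
  intro P f a hPS hf ha haS
  set e : S ≃* S := mkAut ha haS with he
  have hemem : e ∈ F.autGroup S := mkAut_mem ha haS
  have hjF : ∀ α : MulAut S, α ∈ F.autGroup S → Mor F S (jF α) := by
    intro α hα
    refine ((mem_autGroup_iff le_rfl α).1 hα).congr (fun x hx => ?_)
    rw [autFun_of_mem α hx, jF_of_mem α hx]
  have hconj : ∀ α : MulAut S, α ∈ F.autGroup S → ∀ (P : Subgroup Ω) (f : Ω → Ω), Mor F P f →
      Mor F (trSub α P) (jF α ∘ f ∘ jF α.symm) := by
    intro α hα P f hf
    have h1 : Mor F S (jF α.symm) := hjF α⁻¹ ((F.autGroup S).inv_mem hα)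
    have m1 : Mor F (trSub α P) (jF α.symm) := h1.restrict (trSub_le α P)
    have m2 : Mor F (trSub α P) (f ∘ jF α.symm) :=
      m1.comp hf (fun y hy => jF_symm_mem α hf.le hy)
    exact m2.comp (hjF α hα) (fun y hy => hf.mem (jF_symm_mem α hf.le hy))
  have hFiso : FusIso F F e :=
    fusIso_of_mor_both (hconj e hemem) (hconj e.symm ((F.autGroup S).inv_mem hemem))
  obtain ⟨T, hT, Ea, hEa⟩ := exists_sysIso_pull e (le_refl S) E
  have hTS : S = T := (trSub_injective e hT le_rfl (hEa.1.trans (trSub_self e).symm)).symm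
  subst hTS
  have hEaiso : FusIso Ea E e := hEa.fusIso
  have hEasat : Ea.IsSaturated p := hEaiso.symm.saturated hE.1
  have hEaidx : Ea.HasPrimeToPIndexIn F p := by
    constructor
    · have hle : Ea ≤ F := by
        rw [fusionSystem_le_iff]
        intro P f hf
        have h1 : Mor E (trSub e P) (jF e ∘ f ∘ jF e.symm) := hEaiso.mor hf
        have h2 : Mor F (trSub e P) (jF e ∘ f ∘ jF e.symm) := mor_of_subsystem hE.2.1.1 h1
        exact (hFiso P f hf.le (fun x hx => hf.mem hx)).2 h2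
      exact hle
    · intro P hP
      rw [Subgroup.map_le_iff_le_comap, Subgroup.closure_le]
      rintro α ⟨k, hk⟩
      show (α : MulAut P) ∈ Ea.autGroup P
      rw [← hEaiso.congr_mem_autGroup_iff hP]
      have h1 : MulAut.congr (eSub e hP) (α : MulAut P) ∈ F.autGroup (trSub e P) :=
        (hFiso.congr_mem_autGroup_iff hP _).2 α.2
      apply hE.2.1.2 (trSub e P) (trSub_le e P)
      refine ⟨⟨_, h1⟩, Subgroup.subset_closure ⟨k, ?_⟩, rfl⟩
      rw [Subgroup.orderOf_mk, MulEquiv.orderOf_eq, Subgroup.orderOf_coe]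
      exact hk
  have hle : E.IsSubsystemOf Ea := hE.2.2 Ea hEasat hEaidx
  have h2 : Mor Ea P f := mor_of_subsystem hle hf
  have h3 : Mor E (trSub e P) (jF e ∘ f ∘ jF e.symm) := hEaiso.mor h2
  have hjFa : ∀ x ∈ S, jF e x = a x := fun x hx => by
    rw [jF_of_mem e hx]
    rfl
  have himg : trSub e P = imgS P a := by
    ext y
    rw [mem_trSub, (ha.restrict hPS).mem_imgS]
    constructor
    · rintro ⟨x, hxS, hxP, rfl⟩
      exact ⟨x, hxP, (hjFa x hxS).symm⟩
    · rintro ⟨x, hxP, rfl⟩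
      exact ⟨x, hPS hxP, hxP, hjFa x (hPS hxP)⟩
  rw [himg] at h3
  refine ⟨jF e ∘ f ∘ jF e.symm, h3, fun x hx => ?_⟩
  show jF e (f (jF e.symm (a x))) = a (f x)
  rw [← hjFa x (hPS hx), jF_symm_jF e (hPS hx), hjFa _ (hf.mem hx)]

end Cfsg.Agent.H90.TR
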