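import Cfsg.Agent.H90.TRDefs
import Cfsg.Agent.H87.PPowerExist
import Cfsg.Agent.H87.PPowerNormal
import Cfsg.Agent.H87.FusIso
import Cfsg.Agent.H88.Basic
import Cfsg.Agent.H89.Series
import Cfsg.Agent.H80.SolvPSolv
import Cfsg.Agent.H73.PSolv
import Cfsg.Agent.H90.Model
import Cfsg.Agent.H40.Resid

set_option autoImplicit false

/-!
Assembly for S5156: a saturated fusion system has a terminating residual series iff it is
constrained with `p`-solvable models; from the pieces stated in `TRDefs`.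
-/

namespace Cfsg.Agent.H90.TR

open Cfsg Cfsg.FusionSystem Cfsg.Agent.H86 Cfsg.Agent.H87

universe u

theorem isPSolvable_of_card {G : Type u} [Group G] (p : ℕ)
    (h : (∃ m : ℕ, Nat.card G = p ^ m) ∨ (Nat.card G).Coprime p) : IsPSolvable p G := by
  haveI : Subsingleton (G ⧸ (⊤ : Subgroup G)) := QuotientGroup.subsingleton_quotient_top
  refine Cfsg.Agent.H80.isPSolvable_of_normal p (⊤ : Subgroup G) ?_
    (Cfsg.Agent.H80.isPSolvable_of_subsingleton p _)
  rwa [Subgroup.card_top]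

theorem map_mem_opPrimeGrp {Ω : Type u} [Group Ω] {S : Subgroup Ω} {p : ℕ} [Fact p.Prime]
    (hS : IsPGroup p S) {G : Type u} [Group G] (ι : S →* G) (s : S) : ι s ∈ opPrimeGrp p G := by
  obtain ⟨k, hk⟩ := hS s
  have h1 : (ι s) ^ p ^ k = 1 := by rw [← map_pow, hk, map_one]
  obtain ⟨j, -, hj⟩ := (Nat.dvd_prime_pow Fact.out).1 (orderOf_dvd_of_pow_eq_one h1)
  exact Subgroup.subset_closure ⟨j, hj⟩

theorem constrained_of_inv (y1 : Y1Stmt.{u}) (y2 : Y2Stmt.{u}) {Ω : Type u} [Group Ω]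
    {S T : Subgroup Ω} [Finite S] {p : ℕ} [Fact p.Prime] (hS : IsPGroup p S) {F : FusionSystem S}
    (hF : F.IsSaturated p) {E : FusionSystem T} (hTS : T ≤ S) (hEF : E.IsSubsystemOf F)
    (hAI : AutInv E F) (hFr : Frat E F) (hTn : ∀ s ∈ S, ∀ t ∈ T, s * t * s⁻¹ ∈ T)
    (hTT : ∀ T' : Subgroup Ω, T ≤ T' → T' ≤ S → (∀ s ∈ S, ∀ t ∈ T', s * t * s⁻¹ ∈ T') →
      F.StronglyClosed T')
    (hEc : E.IsConstrained p) : F.IsConstrained p := by
  haveI : Finite T := finite_of_le hTS
  have hcore : E.IsNormal E.core := Cfsg.Agent.H88.isNormal_core E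
  have hcen : centralizerIn T E.core ≤ E.core := by
    obtain ⟨-, Q, hQn, hQc⟩ := hEc
    have hQle : Q ≤ E.core := le_sSup hQn
    intro x hx
    apply hQle
    apply hQc.2 Q (isConj_refl E hQc.1)
    exact ⟨hx.1, fun y hy => hx.2 y (hQle hy)⟩
  have hW : F.IsNormal (E.core ⊔ centralizerIn S E.core) :=
    y2 p hS F hF T E.core hcore.1 hTS hTn
      (fun U hU hchar => y1 F E hTS hEF hAI hFr U hU hchar) hcen hTT
  refine ⟨hF, _, hW, ?_⟩
  have hwc : F.WeaklyClosed (E.core ⊔ centralizerIn S E.core) :=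
    Cfsg.Agent.H89.weaklyClosed_of_stronglyClosed (IsNormal.stronglyClosed hW)
  refine ⟨hW.1, fun Q' hQ' => ?_⟩
  obtain ⟨f, hf, rfl⟩ := isConj_iff.1 hQ'
  rw [(weaklyClosed_iff.1 hwc).2 f hf]
  intro x hx
  have hx' : x ∈ centralizerIn S E.core := ⟨hx.1, fun y hy => hx.2 y (le_sup_left (b := centralizerIn S E.core) hy)⟩
  exact le_sup_right (a := E.core) hx'

theorem model_of_normal (g1 : G1Stmt.{u}) (m1 : M1Stmt.{u}) {Ω : Type u} [Group Ω]
    {S : Subgroup Ω} {p : ℕ} [Fact p.Prime] {F : FusionSystem S} {G : Type u} [Group G]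
    {ι : S →* G} (hG : F.IsModel p G ι) (K : Subgroup G) [K.Normal] (T₀ : Subgroup Ω)
    (hT₀S : T₀ ≤ S) (hT₀ : ∀ s : S, (s : Ω) ∈ T₀ ↔ ι s ∈ K) :
    ∃ ι' : T₀ →* K, (conjSys ι hG.2.1.1 K T₀ hT₀S (fun s hs => (hT₀ s).1 hs)).IsModel p K ι' := by
  obtain ⟨hfin, hreal, ⟨T, hT⟩, hcen⟩ := id hG
  haveI := hfin
  obtain ⟨ι', hr, hsyl⟩ := m1 p ι hreal.1 T hT K T₀ hT₀S hT₀
  exact ⟨ι', inferInstance, hr, hsyl, g1 p K hcen⟩

theorem pPrimeResidual_conjSys (m1 : M1Stmt.{u}) (r1a : R1aStmt.{u}) (r1b : R1bStmt.{u})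
    {Ω : Type u} [Group Ω] {S : Subgroup Ω} [Finite S] {p : ℕ} [Fact p.Prime] (hS : IsPGroup p S)
    {F : FusionSystem S} (hF : F.IsSaturated p) {G : Type u} [Group G] {ι : S →* G}
    (hG : F.IsModel p G ι) (hM : ∀ s : S, (s : Ω) ∈ S → ι s ∈ opPrimeGrp p G) :
    F.IsPPrimeResidual p (conjSys ι hG.2.1.1 (opPrimeGrp p G) S le_rfl hM) := by
  obtain ⟨hfin, hreal, ⟨T, hT⟩, hcen⟩ := id hG
  haveI := hfin
  obtain ⟨ι', hr, T', hT'⟩ :=
    m1 p ι hreal.1 T hT (opPrimeGrp p G) S le_rfl (fun s => ⟨hM s, fun _ => s.2⟩)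
  exact ⟨saturated_of_realized hr T' hT', r1a p F G ι hreal hM,
    fun D hD hDi => r1b p hS F hF G ι hG hM D hD hDi⟩

theorem fwd (g1 : G1Stmt.{u}) (g2 : G2Stmt.{u}) (m1 : M1Stmt.{u}) (r1a : R1aStmt.{u})
    (r1b : R1bStmt.{u}) (r2a : R2aStmt.{u}) (r2b : R2bStmt.{u}) (i1 : I1Stmt.{u})
    (y1 : Y1Stmt.{u}) (y2 : Y2Stmt.{u}) {Ω : Type u} [Group Ω] :
    ∀ {S : Subgroup Ω} (F : FusionSystem S) (p : ℕ), F.HasTerminatingResidualSeries p →
      ∀ [Fact p.Prime] [Finite S], IsPGroup p S → F.IsSaturated p →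
        (F.IsConstrained p ∧
          ∀ (G : Type u) [Group G] (ι : S →* G), F.IsModel p G ι → IsPSolvable p G) := by
  intro S F p h
  induction h with
  | @trivial S F p hS0 =>
    intro _ _ hS hF
    constructor
    · refine ⟨hF, F.core, Cfsg.Agent.H88.isNormal_core F, (Cfsg.Agent.H88.isNormal_core F).1,
        fun Q hQ => ?_⟩
      intro x hx
      have hxS : x ∈ S := hx.1
      rw [hS0, Subgroup.mem_bot] at hxS
      rw [hxS]
      exact Subgroup.one_mem _
    · intro G _ ι hG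
      obtain ⟨hfin, hreal, ⟨T, hT⟩, hcen⟩ := hG
      haveI := hfin
      have hr : ι.range = ⊥ := by
        rw [eq_bot_iff]
        rintro _ ⟨s, rfl⟩
        have hs1 : ∀ x ∈ S, x = 1 := fun x hx => by
          rw [hS0] at hx
          exact Subgroup.mem_bot.1 hx
        have : s = 1 := Subtype.ext (hs1 s s.2)
        rw [this, map_one]
        exact Subgroup.one_mem _
      apply isPSolvable_of_card p (Or.inr _)
      have h1 : Nat.card (T : Subgroup G) = 1 := by
        rw [hT, hr]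
        exact Subgroup.card_bot
      have h3 : ¬ p ∣ (T : Subgroup G).index := T.not_dvd_index
      have h4 := Subgroup.card_mul_index (T : Subgroup G)
      rw [h1, one_mul] at h4
      rw [← h4]
      exact ((Nat.Prime.coprime_iff_not_dvd Fact.out).2 h3).symm
  | @step S F E p D hE hD hterm ih =>
    intro _ _ hS hF
    have hEsat := hE.1
    have hTS : E.hyperfocalSubgroup p ≤ S := hyperfocal_le E p
    haveI : Finite (E.hyperfocalSubgroup p) := finite_of_le hTS
    have hTp : IsPGroup p (E.hyperfocalSubgroup p) := hS.to_le hTS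
    obtain ⟨hDc, hDm⟩ := ih hTp hD.1
    have hTn : ∀ s ∈ S, ∀ t ∈ E.hyperfocalSubgroup p, s * t * s⁻¹ ∈ E.hyperfocalSubgroup p :=
      fun s hs => hyperfocal_conj_mem E p hs
    have hEcm : E.IsConstrained p ∧
        ∀ (M : Type u) [Group M] (ι : S →* M), E.IsModel p M ι → IsPSolvable p M := by
      constructor
      · obtain ⟨D₁, hD₁sat, hD₁P⟩ := exists_pPow hS hEsat hTS le_rfl
        have hDD : D = D₁ :=
          pPowerIndex_unique hS hTS hD₁sat (hD₁P.hasPPowerIndexIn le_rfl) hD.1 hD.2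
        rw [← hDD] at hD₁P
        have hinv := invariant_of_pPow hS hEsat hTS hTn le_rfl hD.1 hD₁P
        obtain ⟨hsub, -, hAI, hFr⟩ := (isInvariantIn_iff hTS).1 hinv
        exact constrained_of_inv y1 y2 hS hEsat hTS hsub hAI hFr hTn
          (fun T' hT' hT'S hT'n => stronglyClosed_of_hyperfocal hS hEsat hT'S hT'n hT') hDc
      · intro M _ ι hM
        obtain ⟨hfin, hreal, ⟨T, hT⟩, hcen⟩ := id hM
        haveI := hfin
        have hK : ∀ s : S, (s : Ω) ∈ E.hyperfocalSubgroup p ↔ ι s ∈ pResidual p M :=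
          r2a p E M ι hreal T hT
        obtain ⟨ι', hmod⟩ :=
          model_of_normal g1 m1 hM (pResidual p M) (E.hyperfocalSubgroup p) hTS hK
        have hsat' : (conjSys ι hreal.1 (pResidual p M) (E.hyperfocalSubgroup p) hTS
            (fun s hs => (hK s).1 hs)).IsSaturated p := by
          obtain ⟨_, hr, ⟨T', hT'⟩, _⟩ := hmod
          exact saturated_of_realized hr T' hT'
        have hidx := r2b p E M ι hreal (fun s hs => (hK s).1 hs)
        have heq : D = conjSys ι hreal.1 (pResidual p M) (E.hyperfocalSubgroup p) hTS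
            (fun s hs => (hK s).1 hs) :=
          pPowerIndex_unique hS hTS hsat' hidx hD.1 hD.2
        have hmod' : D.IsModel p (pResidual p M) ι' := by
          rw [heq]
          exact hmod
        have hKsol : IsPSolvable p (pResidual p M) := hDm _ ι' hmod'
        have hq : IsPSolvable p (M ⧸ pResidual p M) := by
          apply isPSolvable_of_card p (Or.inl _)
          have hquot : IsPGroup p (M ⧸ pResidual p M) := by
            intro x
            obtain ⟨g, rfl⟩ := QuotientGroup.mk_surjective x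
            obtain ⟨k, hk⟩ := Cfsg.Agent.H40.exists_pow_prime_pow_coprime (p := p) g
            refine ⟨k, ?_⟩
            rw [← QuotientGroup.mk_pow]
            exact (QuotientGroup.eq_one_iff _).mpr (Subgroup.subset_closure hk)
          exact IsPGroup.iff_card.mp hquot
        exact g2 p (pResidual p M) hKsol hq
    obtain ⟨hEc, hEm⟩ := hEcm
    constructor
    · have hAI := i1 p hS F hF E hE
      have hFr : Frat E F := by
        obtain ⟨-, hfr0, -⟩ := primeIdx_main hS hF E hE.2.1.1 (fun P hP => hE.2.1.2 P hP.1)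
        intro P f _ hf
        obtain ⟨φ, hφ, hφf⟩ := hf
        obtain ⟨α, hα, φ₀, hφ₀, hα0⟩ := hfr0 P φ hφ
        have ha := (mem_autGroup_iff le_rfl α).1 hα
        refine ⟨autFun S α, extFun P φ₀, ha, imgS_autFun ha, mor_extFun hφ₀, fun x hx => ?_⟩
        have hx0 : φ₀ ⟨x, hx⟩ ∈ S := (E.le_of_mem hφ₀).2 _
        rw [← hφf ⟨x, hx⟩, hα0 ⟨x, hx⟩ hx0, extFun_of_mem _ _ hx, autFun_of_mem α hx0]
      refine constrained_of_inv y1 y2 hS hF le_rfl hE.2.1.1 hAI hFr
        (fun s hs t ht => S.mul_mem (S.mul_mem hs ht) (S.inv_mem hs))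
        (fun T' hT' hT'S _ => ?_) hEc
      have : T' = S := le_antisymm hT'S hT'
      rw [this]
      exact stronglyClosed_iff.2 ⟨le_rfl, fun R f _ hf x hx => hf.mem hx⟩
    · intro G _ ι hG
      obtain ⟨hfin, hreal, ⟨T, hT⟩, hcen⟩ := id hG
      haveI := hfin
      have hM : ∀ s : S, (s : Ω) ∈ S → ι s ∈ opPrimeGrp p G :=
        fun s _ => map_mem_opPrimeGrp hS ι s
      have hres := pPrimeResidual_conjSys m1 r1a r1b hS hF hG hM
      have heq : E = conjSys ι hreal.1 (opPrimeGrp p G) S le_rfl hM :=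
        fusionSystem_ext (fun P => Set.Subset.antisymm (hE.2.2 _ hres.1 hres.2.1 P)
          (hres.2.2 _ hE.1 hE.2.1 P))
      obtain ⟨ι', hmod⟩ := model_of_normal g1 m1 hG (opPrimeGrp p G) S le_rfl
        (fun s => ⟨hM s, fun _ => s.2⟩)
      have hmod' : E.IsModel p (opPrimeGrp p G) ι' := by
        rw [heq]
        exact hmod
      have hMsol := hEm _ ι' hmod'
      have hq : IsPSolvable p (G ⧸ opPrimeGrp p G) := by
        apply isPSolvable_of_card p (Or.inr _)
        have hle : (T : Subgroup G) ≤ opPrimeGrp p G := by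
          rw [hT]
          rintro _ ⟨s, rfl⟩
          exact hM s s.2
        have h3 : ¬ p ∣ (T : Subgroup G).index := T.not_dvd_index
        have h5 : (opPrimeGrp p G).index ∣ (T : Subgroup G).index := Subgroup.index_dvd_of_le hle
        have h6 : Nat.card (G ⧸ opPrimeGrp p G) = (opPrimeGrp p G).index := rfl
        rw [h6]
        exact ((Nat.Prime.coprime_iff_not_dvd Fact.out).2 (fun h => h3 (h.trans h5))).symm
      exact g2 p (opPrimeGrp p G) hMsol hq

theorem bwd (g1 : G1Stmt.{u}) (g3 : G3Stmt.{u}) (m1 : M1Stmt.{u}) (r1a : R1aStmt.{u})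
    (r1b : R1bStmt.{u}) (r2a : R2aStmt.{u}) (r2b : R2bStmt.{u}) {Ω : Type u} [Group Ω] {p : ℕ}
    [Fact p.Prime] :
    ∀ (n : ℕ) {S : Subgroup Ω} [Finite S] (F : FusionSystem S), IsPGroup p S → F.IsSaturated p →
      ∀ (G : Type u) [Group G] (ι : S →* G), Nat.card G = n → F.IsModel p G ι →
        IsPSolvable p G → F.HasTerminatingResidualSeries p := by
  intro n
  induction n using Nat.strong_induction_on with
  | _ n ih =>
    intro S _ F hS hF G _ ι hn hG hsol
    by_cases hS0 : S = ⊥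
    · exact HasTerminatingResidualSeries.trivial F p hS0
    obtain ⟨hfin, hreal, ⟨T, hT⟩, hcen⟩ := id hG
    haveI := hfin
    have hM : ∀ s : S, (s : Ω) ∈ S → ι s ∈ opPrimeGrp p G :=
      fun s _ => map_mem_opPrimeGrp hS ι s
    have hres := pPrimeResidual_conjSys m1 r1a r1b hS hF hG hM
    obtain ⟨ι', hmodE⟩ := model_of_normal g1 m1 hG (opPrimeGrp p G) S le_rfl
      (fun s => ⟨hM s, fun _ => s.2⟩)
    obtain ⟨hfin', hreal', ⟨T', hT'⟩, hcen'⟩ := id hmodE
    have hTS := hyperfocal_le (conjSys ι hreal.1 (opPrimeGrp p G) S le_rfl hM) p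
    haveI : Finite ((conjSys ι hreal.1 (opPrimeGrp p G) S le_rfl hM).hyperfocalSubgroup p) :=
      finite_of_le hTS
    have hK : ∀ s : S, (s : Ω) ∈
        (conjSys ι hreal.1 (opPrimeGrp p G) S le_rfl hM).hyperfocalSubgroup p ↔
          ι' s ∈ pResidual p (opPrimeGrp p G) :=
      r2a p _ _ ι' hreal' T' hT'
    obtain ⟨ι'', hmodD⟩ := model_of_normal g1 m1 hmodE (pResidual p (opPrimeGrp p G))
      ((conjSys ι hreal.1 (opPrimeGrp p G) S le_rfl hM).hyperfocalSubgroup p) hTS hK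
    have hDsat : (conjSys ι' hreal'.1 (pResidual p (opPrimeGrp p G))
        ((conjSys ι hreal.1 (opPrimeGrp p G) S le_rfl hM).hyperfocalSubgroup p) hTS
        (fun s hs => (hK s).1 hs)).IsSaturated p := by
      obtain ⟨_, hr, ⟨T'', hT''⟩, _⟩ := hmodD
      exact saturated_of_realized hr T'' hT''
    have hDres : (conjSys ι hreal.1 (opPrimeGrp p G) S le_rfl hM).IsPResidual p
        (conjSys ι' hreal'.1 (pResidual p (opPrimeGrp p G))
        ((conjSys ι hreal.1 (opPrimeGrp p G) S le_rfl hM).hyperfocalSubgroup p) hTS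
        (fun s hs => (hK s).1 hs)) :=
      ⟨hDsat, r2b p _ _ ι' hreal' (fun s hs => (hK s).1 hs)⟩
    have hcard : Nat.card (pResidual p (opPrimeGrp p G)) < n := by
      rw [← hn]
      have hnt : Nontrivial G := by
        by_contra hnt
        rw [not_nontrivial_iff_subsingleton] at hnt
        apply hS0
        rw [eq_bot_iff]
        intro x hx
        have h1 : ι ⟨x, hx⟩ = ι 1 := Subsingleton.elim _ _
        have h2 := hreal.1 h1
        rw [Subgroup.mem_bot]
        exact congrArg Subtype.val h2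
      exact g3 p hnt hsol
    have hKsol : IsPSolvable p (pResidual p (opPrimeGrp p G)) :=
      Cfsg.Agent.H73.isPSolvable_subgroup (Cfsg.Agent.H73.isPSolvable_subgroup hsol _) _
    have hterm := ih _ hcard _ (hS.to_le hTS) hDsat _ ι'' rfl hmodD hKsol
    exact HasTerminatingResidualSeries.step F _ p _ hres hDres hterm

theorem main (g1 : G1Stmt.{u}) (g2 : G2Stmt.{u}) (g3 : G3Stmt.{u}) (m1 : M1Stmt.{u})
    (r1a : R1aStmt.{u}) (r1b : R1bStmt.{u}) (r2a : R2aStmt.{u}) (r2b : R2bStmt.{u})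
    (i1 : I1Stmt.{u}) (y1 : Y1Stmt.{u}) (y2 : Y2Stmt.{u}) {Ω : Type u} [Group Ω]
    {S : Subgroup Ω} [Finite S] (p : ℕ) [Fact p.Prime] (hS : IsPGroup p S) (F : FusionSystem S)
    (hF : F.IsSaturated p) :
    F.HasTerminatingResidualSeries p ↔ (F.IsConstrained p ∧
      ∀ (G : Type u) [Group G] (ι : S →* G), F.IsModel p G ι → Cfsg.IsPSolvable p G) := by
  constructor
  · intro h
    exact fwd g1 g2 m1 r1a r1b r2a r2b i1 y1 y2 F p h hS hF
  · rintro ⟨⟨-, Q, hQn, hQc⟩, hm⟩
    obtain ⟨G, _, ι, hG, -, -⟩ := Cfsg.Agent.H90.exists_model hS hF hQn hQc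
    exact bwd g1 g3 m1 r1a r1b r2a r2b (Nat.card G) F hS hF G ι rfl hG (hm G ι hG)

end Cfsg.Agent.H90.TR
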