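import Cfsg.Agent.H90.TRDefs
import Cfsg.Agent.H90.SubsysCentric
import Cfsg.Agent.H90.PSolvReal
import Cfsg.Agent.H87.ModelUnique
import Cfsg.Agent.H87.FusIso

set_option autoImplicit false

/-!
Piece R1b of S5156: for a model `G` of the saturated system `F`, the system induced by `O^{p'}(G)`
lies in every saturated subsystem of `F` of index prime to `p`.
-/

namespace Cfsg.Agent.H90.TR

open Cfsg Cfsg.FusionSystem Cfsg.Agent.H86 Cfsg.Agent.H87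

universe u

/-- Maps of a realized system, in total-function form. -/
theorem mor_iff_of_realized {Ω : Type u} [Group Ω] {S : Subgroup Ω} {F : FusionSystem S}
    {G : Type*} [Group G] {ι : S →* G} (hreal : F.IsRealizedBy ι) {P : Subgroup Ω} {f : Ω → Ω} :
    Mor F P f ↔ P ≤ S ∧ (∀ x ∈ P, f x ∈ S) ∧
      ∃ g : G, ∀ x : S, (x : Ω) ∈ P → ∀ hfx : f x ∈ S, ι ⟨f x, hfx⟩ = g * ι x * g⁻¹ := by
  have hι := hreal.1
  have h : F = conjSys ι hι ⊤ S le_rfl (fun _ _ => Subgroup.mem_top _) := by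
    apply fusionSystem_ext
    intro P
    ext φ
    constructor
    · intro hφ
      have hle := F.le_of_mem hφ
      obtain ⟨g, hg⟩ := (hreal.2 P hle.1 φ hle.2).1 hφ
      exact ⟨hle.1, hle.2, g, Subgroup.mem_top _, hg⟩
    · rintro ⟨hP, hφ, g, -, hg⟩
      exact (hreal.2 P hP φ hφ).2 ⟨g, hg⟩
  rw [h, mor_conjSys_iff]
  constructor
  · rintro ⟨h1, h2, g, -, h3⟩
    exact ⟨h1, h2, g, h3⟩
  · rintro ⟨h1, h2, g, h3⟩
    exact ⟨h1, h2, g, Subgroup.mem_top _, h3⟩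

theorem r1b : R1bStmt.{u} := by
  intro Ω _ S _ p _ hS F hF G _ ι hG hM D hD hDi
  classical
  obtain ⟨hfin, hreal, ⟨T, hT⟩, hcen⟩ := id hG
  haveI := hfin
  have hι := hreal.1
  obtain ⟨-, Q, hQn, hQc⟩ := constrained_of_model hG
  obtain ⟨hNn, hNc⟩ := model_normal_centric hG hQn hQc
  have hQS : Q ≤ S := hQn.1
  haveI : Finite Q := finite_of_le hQS
  obtain ⟨ψ, -, -, hψ⟩ := Cfsg.Agent.H90.exists_autHom hreal hQS hNn
  have hψD : ∀ g ∈ opPrimeGrp p G, ((ψ g : F.autGroup Q) : MulAut Q) ∈ D.autGroup Q := by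
    intro g hg
    have hle : opPrimeGrp p G ≤ (D.autGroup Q).comap ((F.autGroup Q).subtype.comp ψ) := by
      unfold opPrimeGrp
      rw [Subgroup.closure_le]
      rintro g ⟨k, hk⟩
      show ((ψ g : F.autGroup Q) : MulAut Q) ∈ D.autGroup Q
      apply hDi.2 Q hQS
      refine ⟨ψ g, Subgroup.subset_closure ?_, rfl⟩
      have h1 : orderOf (ψ g) ∣ p ^ k := hk ▸ orderOf_map_dvd ψ g
      obtain ⟨j, -, hj⟩ := (Nat.dvd_prime_pow Fact.out).1 h1
      exact ⟨j, hj⟩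
    exact hle hg
  intro P φ hφ
  have hf : Mor (conjSys ι hG.2.1.1 (opPrimeGrp p G) S le_rfl hM) P (extFun P φ) := mor_extFun hφ
  obtain ⟨hPS, hfS, k, hk, hfk⟩ := mor_conjSys_iff.1 hf
  -- the extension of conjugation by `k` to `P ⊔ Q`
  set f' : Ω → Ω := fun x =>
    if h : ∃ y : S, ∃ hx : x ∈ S, ι y = k * ι ⟨x, hx⟩ * k⁻¹ then ((h.choose : S) : Ω) else 1
    with hf'def
  have hf'S : ∀ x, f' x ∈ S := by
    intro x
    show (if h : ∃ y : S, ∃ hx : x ∈ S, ι y = k * ι ⟨x, hx⟩ * k⁻¹ then ((h.choose : S) : Ω)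
      else 1) ∈ S
    split_ifs with h
    · exact h.choose.2
    · exact S.one_mem
  have hf'eq : ∀ (x : Ω) (hx : x ∈ S) (y : S), ι y = k * ι ⟨x, hx⟩ * k⁻¹ → f' x = y := by
    intro x hx y hy
    have h : ∃ y : S, ∃ hx : x ∈ S, ι y = k * ι ⟨x, hx⟩ * k⁻¹ := ⟨y, hx, hy⟩
    have h1 : f' x = ((h.choose : S) : Ω) := dif_pos h
    obtain ⟨hx', h2⟩ := h.choose_spec
    have h3 : ι h.choose = ι y := by rw [h2, hy]
    rw [h1, hι h3]
  -- the subgroup where conjugation by `k` stays in the image of `S`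
  have hA : ∀ x ∈ P ⊔ Q, ∃ hx : x ∈ S, ∃ y : S, ι y = k * ι ⟨x, hx⟩ * k⁻¹ := by
    have hle : P ⊔ Q ≤ (ι.range.comap ((MulAut.conj k).toMonoidHom.comp ι)).map S.subtype := by
      refine sup_le ?_ ?_
      · intro x hx
        refine ⟨⟨x, hPS hx⟩, ?_, rfl⟩
        show k * ι ⟨x, hPS hx⟩ * k⁻¹ ∈ ι.range
        exact ⟨⟨extFun P φ x, hfS x hx⟩, hfk ⟨x, hPS hx⟩ hx (hfS x hx)⟩
      · intro x hx
        refine ⟨⟨x, hQS hx⟩, ?_, rfl⟩
        show k * ι ⟨x, hQS hx⟩ * k⁻¹ ∈ ι.range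
        exact ⟨_, hψ k ⟨x, hx⟩⟩
    intro x hx
    obtain ⟨s, hs, rfl⟩ := hle hx
    obtain ⟨y, hy⟩ := hs
    exact ⟨s.2, y, hy⟩
  have hPQS : P ⊔ Q ≤ S := sup_le hPS hQS
  have hf'F : Mor F (P ⊔ Q) f' := by
    rw [mor_iff_of_realized hreal]
    refine ⟨hPQS, fun x _ => hf'S x, k, fun x hx hfx => ?_⟩
    obtain ⟨hxS, y, hy⟩ := hA x hx
    have h1 : f' x = y := hf'eq x hxS y hy
    have h2 : (⟨f' x, hfx⟩ : S) = y := Subtype.ext h1
    rw [h2, hy]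
  have hf'Q : Mor D Q f' := by
    have h1 : Mor D Q (autFun Q ((ψ k : F.autGroup Q) : MulAut Q)) :=
      (mem_autGroup_iff hQS _).1 (hψD k hk)
    refine h1.congr (fun x hx => ?_)
    rw [autFun_of_mem _ hx]
    exact (hf'eq x (hQS hx) _ (hψ k ⟨x, hx⟩)).symm
  have hf'D : Mor D (P ⊔ Q) f' :=
    Cfsg.Agent.H90.mor_of_centric_restrict hS hF hD hDi.1 hf'F le_sup_right hQc hf'Q
  have hfD : Mor D P (extFun P φ) := by
    refine (hf'D.restrict le_sup_left).congr (fun x hx => ?_)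
    exact hf'eq x (hPS hx) ⟨extFun P φ x, hfS x hx⟩ (hfk ⟨x, hPS hx⟩ hx (hfS x hx))
  exact Cfsg.Agent.H90.mem_hom_of_mor hfD

end Cfsg.Agent.H90.TR
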