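import Mathlib
import Cfsg.Agent.H58.UqDefs
import Cfsg.Agent.S2942
import Cfsg.Agent.H12.SpConjG
import Cfsg.Agent.H51.JcNORM
import Cfsg.Agent.H51.Local

/-!
# UQ-END (piece of S2950, for helper58): uniqueness of the maximal 2-local over `⟨K, J(T)⟩`

`endp (hOrb : StOrb) (hS : StS) (hF : StFrat) (hO : StO2SN) : StEnd`.
-/

set_option autoImplicit false
open Cfsg

namespace Cfsg.Agent.H90.Uq

open Cfsg.Agent.H58.Uq

universe u

theorem ue_map_conj_le {X : Type u} [Group X] (W : Subgroup X) (g : X)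
    (hg : g ∈ Subgroup.normalizer (W : Set X)) : W.map (MulAut.conj g).toMonoidHom ≤ W := by
  rintro _ ⟨x, hx, rfl⟩
  have h1 := (Subgroup.mem_normalizer_iff.1 hg x).1 hx
  simpa [MulAut.conj_apply] using h1

theorem ue_mem_normalizer {X : Type u} [Group X] (W : Subgroup X) (g : X)
    (h : W.map (MulAut.conj g).toMonoidHom ≤ W)
    (h' : W.map (MulAut.conj g⁻¹).toMonoidHom ≤ W) :
    g ∈ Subgroup.normalizer (W : Set X) := by
  rw [Subgroup.mem_normalizer_iff]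
  intro x
  constructor
  · intro hx
    have h1 : (MulAut.conj g).toMonoidHom x ∈ W := h ⟨x, hx, rfl⟩
    simpa [MulAut.conj_apply] using h1
  · intro hx
    have h1 : (MulAut.conj g⁻¹).toMonoidHom (g * x * g⁻¹) ∈ W := h' ⟨_, hx, rfl⟩
    have e : (MulAut.conj g⁻¹).toMonoidHom (g * x * g⁻¹) = x := by
      simp only [MulEquiv.coe_toMonoidHom, MulAut.conj_apply]
      group
    rwa [e] at h1

theorem ue_le_normalizer_iSup {X : Type u} [Group X] {ι : Type u} (A : ι → Subgroup X)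
    (H : Subgroup X) (h : ∀ i, H ≤ Subgroup.normalizer ((A i : Subgroup X) : Set X)) :
    H ≤ Subgroup.normalizer (((⨆ i, A i : Subgroup X)) : Set X) := by
  intro g hg
  apply ue_mem_normalizer
  · rw [Subgroup.map_iSup]
    exact iSup_mono (fun i => ue_map_conj_le (A i) g (h i hg))
  · rw [Subgroup.map_iSup]
    exact iSup_mono (fun i => ue_map_conj_le (A i) g⁻¹
      ((Subgroup.normalizer _).inv_mem (h i hg)))

theorem ue_map_map_conj {X : Type u} [Group X] (W : Subgroup X) (r ρ : X) :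
    (W.map (MulAut.conj ρ).toMonoidHom).map (MulAut.conj r).toMonoidHom =
      W.map (MulAut.conj (r * ρ)).toMonoidHom := by
  rw [Subgroup.map_map]
  congr 1
  ext x
  simp only [MonoidHom.comp_apply, MulEquiv.coe_toMonoidHom, MulAut.conj_apply]
  group

theorem ue_map_conj_one {X : Type u} [Group X] (W : Subgroup X) :
    W.map (MulAut.conj (1 : X)).toMonoidHom = W := by
  ext x
  simp [Subgroup.mem_map, MulAut.conj_apply]

/-- UQ-END. -/
theorem endp (hOrb : StOrb.{u}) (hS : StS.{u}) (hF : StFrat.{u}) (hO : StO2SN.{u}) :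
    StEnd.{u} := by
  intro G _ _ hZN T hT hT1 L L' T₁ T₂ hLmax hL'max hLT₁ hL'T₂ hJ₁ hJ₂ K hK hKL hKL'
  have hZN' := hZN
  obtain ⟨hc2, hsolv, hZ⟩ := hZN'
  have horb := hOrb hZN T hT hT1 L L' T₁ T₂ hLmax hL'max hLT₁ hL'T₂ hJ₁ hJ₂ K hK hKL hKL'
  generalize hRdef : (L ⊓ Subgroup.normalizer (thompsonSubgroupOf 2 T : Set G)) ⊔
      (L' ⊓ Subgroup.normalizer (thompsonSubgroupOf 2 T : Set G)) = R at horb
  have hLR : L ⊓ Subgroup.normalizer (thompsonSubgroupOf 2 T : Set G) ≤ R := by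
    rw [← hRdef]; exact le_sup_left
  have hL'R : L' ⊓ Subgroup.normalizer (thompsonSubgroupOf 2 T : Set G) ≤ R := by
    rw [← hRdef]; exact le_sup_right
  let A : ↥R → Subgroup G := fun ρ => (wOf K).map (MulAut.conj (ρ : G)).toMonoidHom
  have hU : ∃ U : Subgroup G, U = ⨆ ρ : ↥R, A ρ := ⟨_, rfl⟩
  obtain ⟨U, hUdef⟩ := hU
  -- `R` normalizes `U`
  have hRU : R ≤ Subgroup.normalizer (U : Set G) := by
    have aux : ∀ r ∈ R, U.map (MulAut.conj r).toMonoidHom ≤ U := by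
      intro r hr
      rw [hUdef, Subgroup.map_iSup]
      apply iSup_le
      intro ρ
      have e : (A ρ).map (MulAut.conj r).toMonoidHom =
          A ⟨r * (ρ : G), R.mul_mem hr ρ.2⟩ := ue_map_map_conj (wOf K) r (ρ : G)
      rw [e]
      exact le_iSup A ⟨r * (ρ : G), R.mul_mem hr ρ.2⟩
    intro r hr
    exact ue_mem_normalizer U r (aux r hr) (aux r⁻¹ (R.inv_mem hr))
  -- the key claim for `(L, T₁)` and `(L', T₂)`
  have key : ∀ (L₀ T₀ : Subgroup G), L₀ ∈ jOvergroups T₀ →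
      thompsonSubgroupOf 2 T₀ = thompsonSubgroupOf 2 T →
      (∀ ρ ∈ R, K.map (MulAut.conj ρ).toMonoidHom ≤ L₀) →
      L₀ ⊓ Subgroup.normalizer (thompsonSubgroupOf 2 T : Set G) ≤ R →
      L₀ ≤ Subgroup.normalizer (U : Set G) ∧ U ≤ pCoreOf 2 L₀ := by
    intro L₀ T₀ hL₀ hJ₀ hKρ hL₀R
    have hT₀2 : IsPGroup 2 ↥T₀ := hL₀.1.2.1
    have hT₀ne : T₀ ≠ ⊥ := by
      rintro rfl
      apply hL₀.2.1
      have h1 : thompsonSubgroupOf 2 (⊥ : Subgroup G) ≤ ⊥ := Subgroup.map_subtype_le _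
      exact h1.trans bot_le
    have hcongr := k0_congr T T₀ hJ₀
    have hK0 : ∀ ρ ∈ R, K.map (MulAut.conj ρ).toMonoidHom ∈ jComponentsZero T₀ := by
      intro ρ hρ
      rw [hcongr.1]; exact (horb ρ hρ).1
    refine ⟨?_, ?_⟩
    · apply hF T₀ L₀ U hL₀.1
      · intro l hl
        rw [hUdef]
        apply ue_le_normalizer_iSup
        intro ρ
        have hJc : IsJComponent T₀ (K.map (MulAut.conj (ρ : G)).toMonoidHom) := (hK0 ρ ρ.2).1
        have h1 := hS hZN T₀ hT₀2 hT₀ne L₀ hL₀ _ hJc (hKρ ρ ρ.2)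
          ⟨1, by rw [ue_map_conj_one]; exact hK0 ρ ρ.2⟩ l hl
        rw [Cfsg.Agent.H12.Sp.wOf_conj_map] at h1
        exact h1
      · rw [hJ₀]
        exact hL₀R.trans hRU
    · rw [hUdef]
      apply iSup_le
      intro ρ
      have hJc : IsJComponent T₀ (K.map (MulAut.conj (ρ : G)).toMonoidHom) := (hK0 ρ ρ.2).1
      have hsn := Cfsg.Agent.S2942.result hc2 hsolv hZ T₀ hT₀2 hT₀ne L₀ hL₀ _ hJc (hKρ ρ ρ.2)
      have h1 := hO _ L₀ (hKρ ρ ρ.2) hsn
      have h2 : A ρ = wOf (K.map (MulAut.conj (ρ : G)).toMonoidHom) :=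
        (Cfsg.Agent.H12.Sp.wOf_conj_map K (ρ : G)).symm
      rw [h2]
      exact (Cfsg.Agent.H51.Jc.wOf_le _).trans h1
  have h1 := key L T₁ hLT₁ hJ₁ (fun ρ hρ => (horb ρ hρ).2.1) hLR
  have h2 := key L' T₂ hL'T₂ hJ₂ (fun ρ hρ => (horb ρ hρ).2.2) hL'R
  have hU2 : IsPGroup 2 ↥U := (Cfsg.Agent.H51.pCoreOf_isPGroup 2 L).to_le h1.2
  have hWU : wOf K ≤ U := by
    rw [hUdef]
    have h3 : A ⟨1, R.one_mem⟩ = wOf K := ue_map_conj_one (wOf K)
    calc wOf K = A ⟨1, R.one_mem⟩ := h3.symm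
      _ ≤ ⨆ ρ : ↥R, A ρ := le_iSup A ⟨1, R.one_mem⟩
  have hUne : U ≠ ⊥ := by
    intro hbot
    have h4 : wOf K = ⊥ := by
      rw [eq_bot_iff, ← hbot]; exact hWU
    have h5 := hK.1.2.2.2.2.1
    rw [h4, Subgroup.card_bot] at h5
    omega
  have h2loc : IsTwoLocal (Subgroup.normalizer (U : Set G)) := ⟨U, hU2, hUne, rfl⟩
  exact (hL'max.2 _ h2loc h2.1).symm.trans (hLmax.2 _ h2loc h1.1)

example (hOrb : StOrb.{u}) (hS : StS.{u}) (hF : StFrat.{u}) (hO : StO2SN.{u}) :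
    Cfsg.Agent.H58.Uq.StEnd.{u} := endp hOrb hS hF hO

end Cfsg.Agent.H90.Uq

#print axioms Cfsg.Agent.H90.Uq.endp
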